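import Mathlib

/-! # Two primes between `n` and `2n` (helper70); adaptation of Mathlib's proof of Bertrand's postulate -/

set_option autoImplicit false
set_option linter.unusedVariables false

namespace H70.TwoPrimes

open Real in
theorem real_main {x : ℝ} (x_large : (512 : ℝ) ≤ x) :
    x * (2 * x) * (2 * x) ^ √(2 * x) * 4 ^ (2 * x / 3) ≤ 4 ^ x := by
  let f : ℝ → ℝ := fun x => (log x + log x + log 2) + √(2 * x) * log (2 * x) - log 4 / 3 * x
  have hf' : ∀ x, 0 < x → 0 < x * (2 * x) * (2 * x) ^ √(2 * x) / 4 ^ (x / 3) := fun x h =>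
    div_pos (mul_pos (mul_pos h (mul_pos two_pos h)) (rpow_pos_of_pos (mul_pos two_pos h) _)) (rpow_pos_of_pos four_pos _)
  have hf : ∀ x, 0 < x → f x = log (x * (2 * x) * (2 * x) ^ √(2 * x) / 4 ^ (x / 3)) := by
    intro x h5
    have h6 := mul_pos (zero_lt_two' ℝ) h5
    have h7 := rpow_pos_of_pos h6 (√(2 * x))
    rw [log_div (mul_pos (mul_pos h5 h6) h7).ne' (rpow_pos_of_pos four_pos _).ne', log_mul (mul_pos h5 h6).ne' h7.ne',
      log_mul h5.ne' h6.ne', log_mul two_ne_zero h5.ne',
      log_rpow h6, log_rpow zero_lt_four, ← mul_div_right_comm, ← mul_div, mul_comm x, log_mul two_ne_zero h5.ne']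
    simp only [f]
    rw [log_mul two_ne_zero h5.ne']
    ring
  have h5 : 0 < x := lt_of_lt_of_le (by norm_num1) x_large
  rw [← div_le_one (rpow_pos_of_pos four_pos x), ← div_div_eq_mul_div, ← rpow_sub four_pos, ←
    mul_div 2 x, mul_div_left_comm, ← mul_one_sub, (by norm_num1 : (1 : ℝ) - 2 / 3 = 1 / 3),
    mul_one_div, ← log_nonpos_iff (hf' x h5).le, ← hf x h5]
  have h : ConcaveOn ℝ (Set.Ioi 0.5) f := by
    apply ConcaveOn.sub
    · apply ConcaveOn.add
      · apply ConcaveOn.add_const
        apply ConcaveOn.add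
        · exact strictConcaveOn_log_Ioi.concaveOn.subset
            (Set.Ioi_subset_Ioi (by norm_num)) (convex_Ioi 0.5)
        · exact strictConcaveOn_log_Ioi.concaveOn.subset
            (Set.Ioi_subset_Ioi (by norm_num)) (convex_Ioi 0.5)
      convert!
        ((strictConcaveOn_sqrt_mul_log_Ioi.concaveOn.comp_linearMap
        ((2 : ℝ) • LinearMap.id)))
        using 1
      ext x
      simp only [Set.mem_Ioi, Set.mem_preimage, LinearMap.smul_apply,
        LinearMap.id_coe, id_eq, smul_eq_mul]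
      rw [← mul_lt_mul_iff_right₀ (two_pos)]
      norm_num1
      rfl
    apply ConvexOn.smul
    · refine div_nonneg (log_nonneg (by norm_num1)) (by norm_num1)
    · exact convexOn_id (convex_Ioi (0.5 : ℝ))
  suffices ∃ x1 x2, 0.5 < x1 ∧ x1 < x2 ∧ x2 ≤ x ∧ 0 ≤ f x1 ∧ f x2 ≤ 0 by
    obtain ⟨x1, x2, h1, h2, h0, h3, h4⟩ := this
    exact (h.right_le_of_le_left'' h1 ((h1.trans h2).trans_le h0) h2 h0 (h4.trans h3)).trans h4
  refine ⟨18, 512, by norm_num1, by norm_num1, x_large, ?_, ?_⟩
  · have : √(2 * 18 : ℝ) = 6 := (sqrt_eq_iff_mul_self_eq_of_pos (by norm_num1)).mpr (by norm_num1)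
    rw [hf _ (by norm_num1), log_nonneg_iff (by positivity), this, one_le_div (by norm_num1)]
    norm_num1
  · have : √(2 * 512) = 32 :=
      (sqrt_eq_iff_mul_self_eq_of_pos (by norm_num1)).mpr (by norm_num1)
    rw [hf _ (by norm_num1), log_nonpos_iff (hf' _ (by norm_num1)).le, this,
        div_le_one (by positivity)]
    have e1 : (512 : ℝ) = 2 ^ 9 := by norm_num1
    have e2 : (2 * 512 : ℝ) = 2 ^ 10 := by norm_num1
    have e3 : (2 * 512 : ℝ) ^ (32 : ℝ) = 2 ^ 320 := by
      rw [e2, show (32 : ℝ) = ((32 : ℕ) : ℝ) by norm_num, rpow_natCast, ← pow_mul]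
    have e4 : (4 : ℝ) ^ ((512 : ℝ) / 3) = 2 ^ ((1024 : ℝ) / 3) := by
      have h4 : (4 : ℝ) = (2 : ℝ) ^ (2 : ℝ) := by rw [rpow_two]; norm_num1
      have h5 : (2 : ℝ) * (512 / 3) = 1024 / 3 := by norm_num1
      calc (4 : ℝ) ^ ((512 : ℝ) / 3) = ((2 : ℝ) ^ (2 : ℝ)) ^ ((512 : ℝ) / 3) := by rw [← h4]
        _ = (2 : ℝ) ^ ((2 : ℝ) * (512 / 3)) := by rw [← rpow_mul (by norm_num)]
        _ = _ := by rw [h5]
    rw [e3, e4, e2, e1, ← pow_add, ← pow_add, ← rpow_natCast]
    apply rpow_le_rpow_of_exponent_le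
    all_goals norm_num1

theorem main_ineq {n : ℕ} (n_large : 512 ≤ n) :
    n * (2 * n) * (2 * n) ^ Nat.sqrt (2 * n) * 4 ^ (2 * n / 3) ≤ 4 ^ n := by
  rw [← @Nat.cast_le ℝ]
  simp only [Nat.cast_mul, Nat.cast_pow, ← Real.rpow_natCast, Nat.cast_ofNat]
  refine _root_.trans ?_ (real_main (by exact_mod_cast n_large))
  gcongr
  · have n2_pos : 0 < 2 * n := by positivity
    exact mod_cast n2_pos
  · exact_mod_cast Real.nat_sqrt_le_real_sqrt
  · norm_num1
  · exact Nat.cast_div_le.trans (by norm_cast)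

open Nat in
theorem centralBinom_small (n q : ℕ) (n_large : 2 < n)
    (no_prime : ∀ p : ℕ, p.Prime → n < p → p ≤ 2 * n → p = q) :
    centralBinom n ≤ (∏ p ∈ Finset.range (2 * n / 3 + 1), p ^ (centralBinom n).factorization p) * (2 * n) := by
  have n_pos : 0 < n := by omega
  have hle : ∀ p, p ^ (centralBinom n).factorization p ≤ 2 * n := fun p => pow_factorization_choose_le (mul_pos two_pos n_pos)
  have hpos : ∀ s : Finset ℕ, 0 < ∏ p ∈ s, p ^ (centralBinom n).factorization p := by
    intro s
    apply Finset.prod_pos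
    intro p _
    by_cases hp : p.Prime
    · exact pow_pos hp.pos _
    · rw [factorization_eq_zero_of_not_prime n.centralBinom hp, Nat.pow_zero]; norm_num
  have h1 : centralBinom n = ∏ p ∈ Finset.range (2 * n + 1), p ^ (centralBinom n).factorization p :=
    (n.prod_pow_factorization_centralBinom).symm
  have h2 : ∏ p ∈ Finset.range (2 * n + 1), p ^ (centralBinom n).factorization p =
      ∏ p ∈ (Finset.range (2 * n / 3 + 1)) ∪ (Finset.range (2 * n + 1)).filter (fun p => p = q),
        p ^ (centralBinom n).factorization p := by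
    symm
    apply Finset.prod_subset
    · intro x hx
      rw [Finset.mem_union, Finset.mem_range, Finset.mem_filter] at hx
      rw [Finset.mem_range]
      rcases hx with hx | hx
      · omega
      · exact Finset.mem_range.1 hx.1
    · intro x hx h2x
      rw [Finset.mem_union, Finset.mem_range, Finset.mem_filter, not_or] at h2x
      rw [Finset.mem_range, Nat.lt_succ_iff] at hx
      have hx1 : 2 * n < 3 * x := by omega
      have hxq : x ≠ q := fun h => h2x.2 ⟨Finset.mem_range.2 (by omega), h⟩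
      by_cases hp : x.Prime
      · have hxn : x ≤ n := by
          by_contra hc
          exact hxq (no_prime x hp (by omega) hx)
        rw [factorization_centralBinom_of_two_mul_self_lt_three_mul n_large hxn hx1, Nat.pow_zero]
      · rw [factorization_eq_zero_of_not_prime n.centralBinom hp, Nat.pow_zero]
  calc centralBinom n = _ := h1
    _ = _ := h2
    _ ≤ (∏ p ∈ Finset.range (2 * n / 3 + 1), p ^ (centralBinom n).factorization p) *
        ∏ p ∈ (Finset.range (2 * n + 1)).filter (fun p => p = q), p ^ (centralBinom n).factorization p := by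
        rw [← Finset.prod_union_inter]
        exact Nat.le_mul_of_pos_right _ (hpos _)
    _ ≤ _ := by
        apply Nat.mul_le_mul_left
        rw [Finset.filter_eq']
        split_ifs
        · rw [Finset.prod_singleton]; exact hle q
        · rw [Finset.prod_empty]; omega

open Nat in
theorem centralBinom_le (n q : ℕ) (n_large : 2 < n)
    (no_prime : ∀ p : ℕ, p.Prime → n < p → p ≤ 2 * n → p = q) :
    centralBinom n ≤ (2 * n) ^ sqrt (2 * n) * 4 ^ (2 * n / 3) * (2 * n) := by
  have n_pos : 0 < n := (Nat.zero_le _).trans_lt n_large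
  have n2_pos : 1 ≤ 2 * n := mul_pos (zero_lt_two' ℕ) n_pos
  refine (centralBinom_small n q n_large no_prime).trans (Nat.mul_le_mul_right _ ?_)
  let S := {p ∈ Finset.range (2 * n / 3 + 1) | Nat.Prime p}
  let f x := x ^ n.centralBinom.factorization x
  have : ∏ x ∈ S, f x = ∏ x ∈ Finset.range (2 * n / 3 + 1), f x := by
    refine Finset.prod_filter_of_ne fun p _ h => ?_
    contrapose h; dsimp only [f]
    rw [factorization_eq_zero_of_not_prime n.centralBinom h, _root_.pow_zero]
  change ∏ x ∈ Finset.range (2 * n / 3 + 1), f x ≤ _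
  rw [← this, ← Finset.prod_filter_mul_prod_filter_not S (· ≤ sqrt (2 * n))]
  apply mul_le_mul'
  · refine (Finset.prod_le_prod' fun p _ => (?_ : f p ≤ 2 * n)).trans ?_
    · exact pow_factorization_choose_le (mul_pos two_pos n_pos)
    have : (Finset.Icc 1 (sqrt (2 * n))).card = sqrt (2 * n) := by rw [card_Icc, Nat.add_sub_cancel]
    rw [Finset.prod_const]
    refine pow_right_mono₀ n2_pos ((Finset.card_le_card fun x hx => ?_).trans this.le)
    obtain ⟨h1, h2⟩ := Finset.mem_filter.1 hx
    exact Finset.mem_Icc.mpr ⟨(Finset.mem_filter.1 h1).2.one_lt.le, h2⟩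
  · refine le_trans ?_ (primorial_le_four_pow (2 * n / 3))
    refine (Finset.prod_le_prod' fun p hp => (?_ : f p ≤ p)).trans ?_
    · obtain ⟨h1, h2⟩ := Finset.mem_filter.1 hp
      refine (pow_right_mono₀ (Finset.mem_filter.1 h1).2.one_lt.le ?_).trans (pow_one p).le
      exact Nat.factorization_choose_le_one (sqrt_lt'.mp <| not_le.1 h2)
    refine Finset.prod_le_prod_of_subset_of_one_le' (Finset.filter_subset _ _) ?_
    exact fun p hp _ => (Finset.mem_filter.1 hp).2.one_lt.le

theorem two_primes_large (n : ℕ) (hn : 512 ≤ n) : ∃ p q : ℕ, p.Prime ∧ q.Prime ∧ n < p ∧ p < q ∧ q ≤ 2 * n := by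
  obtain ⟨q, hq, hnq, hq2⟩ := Nat.exists_prime_lt_and_le_two_mul n (by omega)
  by_contra hcon
  push Not at hcon
  have hno : ∀ p : ℕ, p.Prime → n < p → p ≤ 2 * n → p = q := by
    intro p hp h1 h2
    rcases lt_trichotomy p q with h | h | h
    · exact absurd hq2 (not_le.2 (hcon p q hp hq h1 h))
    · exact h
    · exact absurd h2 (not_le.2 (hcon q p hq hp hnq h))
  have h1 := centralBinom_le n q (by omega) hno
  have h2 : 4 ^ n < n * n.centralBinom := Nat.four_pow_lt_mul_centralBinom n (le_trans (by norm_num1) hn)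
  have h3 := main_ineq hn
  have h4 : n * n.centralBinom ≤ n * (2 * n) * (2 * n) ^ Nat.sqrt (2 * n) * 4 ^ (2 * n / 3) := by
    calc n * n.centralBinom ≤ n * ((2 * n) ^ Nat.sqrt (2 * n) * 4 ^ (2 * n / 3) * (2 * n)) := Nat.mul_le_mul_left _ h1
      _ = _ := by ring
  omega

theorem two_primes_small (n : ℕ) (h6 : 6 ≤ n) (hn : n < 512) :
    ∃ p q : ℕ, p.Prime ∧ q.Prime ∧ n < p ∧ p < q ∧ q ≤ 2 * n := by
  have key : ∀ (a p q : ℕ), p.Prime → q.Prime → p < q → q ≤ 2 * a → a ≤ n → n < p →
      ∃ p q : ℕ, p.Prime ∧ q.Prime ∧ n < p ∧ p < q ∧ q ≤ 2 * n :=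
    fun a p q hp hq hpq hqa han hnp => ⟨p, q, hp, hq, hnp, hpq, by omega⟩
  by_cases h : n < 7
  · exact key 6 7 11 (by norm_num) (by norm_num) (by norm_num) (by norm_num) h6 h
  by_cases h2 : n < 11
  · exact key 7 11 13 (by norm_num) (by norm_num) (by norm_num) (by norm_num) (by omega) h2
  by_cases h3 : n < 13
  · exact key 11 13 19 (by norm_num) (by norm_num) (by norm_num) (by norm_num) (by omega) h3
  by_cases h4 : n < 19
  · exact key 13 19 23 (by norm_num) (by norm_num) (by norm_num) (by norm_num) (by omega) h4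
  by_cases h5 : n < 23
  · exact key 19 23 37 (by norm_num) (by norm_num) (by norm_num) (by norm_num) (by omega) h5
  by_cases h6 : n < 37
  · exact key 23 37 43 (by norm_num) (by norm_num) (by norm_num) (by norm_num) (by omega) h6
  by_cases h7 : n < 43
  · exact key 37 43 73 (by norm_num) (by norm_num) (by norm_num) (by norm_num) (by omega) h7
  by_cases h8 : n < 73
  · exact key 43 73 83 (by norm_num) (by norm_num) (by norm_num) (by norm_num) (by omega) h8
  by_cases h9 : n < 83
  · exact key 73 83 139 (by norm_num) (by norm_num) (by norm_num) (by norm_num) (by omega) h9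
  by_cases h10 : n < 139
  · exact key 83 139 163 (by norm_num) (by norm_num) (by norm_num) (by norm_num) (by omega) h10
  by_cases h11 : n < 163
  · exact key 139 163 277 (by norm_num) (by norm_num) (by norm_num) (by norm_num) (by omega) h11
  by_cases h12 : n < 277
  · exact key 163 277 317 (by norm_num) (by norm_num) (by norm_num) (by norm_num) (by omega) h12
  by_cases h13 : n < 317
  · exact key 277 317 547 (by norm_num) (by norm_num) (by norm_num) (by norm_num) (by omega) h13
  exact key 317 547 631 (by norm_num) (by norm_num) (by norm_num) (by norm_num) (by omega) (by omega)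

/-- for `n ≥ 6` there are two primes in `(n, 2n]` -/
theorem two_primes (n : ℕ) (h6 : 6 ≤ n) : ∃ p q : ℕ, p.Prime ∧ q.Prime ∧ n < p ∧ p < q ∧ q ≤ 2 * n := by
  by_cases h : n < 512
  · exact two_primes_small n h6 h
  · exact two_primes_large n (by omega)

/-- for `n ≥ 11` there are two primes in `(n/2, n]` -/
theorem two_primes_half (n : ℕ) (h : 11 ≤ n) : ∃ p q : ℕ, p.Prime ∧ q.Prime ∧ n < 2 * p ∧ p < q ∧ q ≤ n := by
  by_cases h11 : n = 11
  · exact ⟨7, 11, by norm_num, by norm_num, by omega, by omega, by omega⟩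
  · obtain ⟨p, q, hp, hq, h1, h2, h3⟩ := two_primes (n / 2) (by omega)
    exact ⟨p, q, hp, hq, by omega, h2, by omega⟩

end H70.TwoPrimes
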