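import Cfsg.Prelude.Def_PLocal
import Cfsg.Agent.Lib.H37.QuadCore
import Cfsg.Agent.Lib.H13.Cores
import Cfsg.Agent.Lib.H70.TwoPrimes

/-! # Groups with the order and spectrum of `A_n` (helper70) -/

set_option autoImplicit false
set_option linter.unusedVariables false
set_option linter.unusedSectionVars false
set_option linter.style.haveILetI false

namespace H70.AltSpec

open Subgroup Cfsg

variable {G : Type*} [Group G] [Finite G]

theorem exists_pq {p q : ℕ} [hp : Fact p.Prime] [hq : Fact q.Prime] (hpq : p ≠ q) {P : Subgroup G}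
    {a : ℕ} (hP : Nat.card P = p ^ a) {y : G} (hy : y ∈ normalizer (P : Set G)) (hyo : orderOf y = q)
    (ha : ¬ q ∣ p ^ a - 1) : ∃ g : G, orderOf g = p * q := by
  have hyz : ∀ g ∈ zpowers y, ∀ x ∈ P, g * x * g⁻¹ ∈ P := by
    intro g hg x hx
    have : g ∈ normalizer (P : Set G) := (zpowers_le.2 hy) hg
    exact (mem_normalizer_iff.1 this x).1 hx
  let act : MulAction (zpowers y) P :=
    { smul := fun g x => ⟨(g : G) * x * (g : G)⁻¹, hyz g g.2 x x.2⟩
      one_smul := fun x => Subtype.ext (by change ((1 : zpowers y) : G) * x * ((1 : zpowers y) : G)⁻¹ = x; simp)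
      mul_smul := fun g h x => Subtype.ext (by
        change ((g * h : zpowers y) : G) * x * ((g * h : zpowers y) : G)⁻¹ = (g : G) * ((h : G) * x * (h : G)⁻¹) * (g : G)⁻¹
        push_cast; group) }
  have hpg : IsPGroup q (zpowers y) := by
    rw [IsPGroup.iff_card]
    exact ⟨1, by rw [Nat.card_zpowers, hyo, pow_one]⟩
  have h1 := hpg.card_modEq_card_fixedPoints P
  rw [hP] at h1
  have h2 : ∃ x ∈ P, x ≠ 1 ∧ Commute x y := by
    by_contra hcon
    push Not at hcon
    have h3 : Nat.card (MulAction.fixedPoints (zpowers y) P) = 1 := by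
      have hone : (1 : P) ∈ MulAction.fixedPoints (zpowers y) P := by
        intro g
        apply Subtype.ext
        change (g : G) * ((1 : P) : G) * (g : G)⁻¹ = ((1 : P) : G)
        simp
      rw [Nat.card_eq_one_iff_unique]
      refine ⟨⟨fun x z => ?_⟩, ⟨⟨1, hone⟩⟩⟩
      have hall : ∀ x : MulAction.fixedPoints (zpowers y) P, (x : P) = 1 := by
        intro x
        by_contra hne
        apply hcon x.1.1 x.1.2 (fun h => hne (Subtype.ext h))
        have h4 : y * (x.1.1 : G) * y⁻¹ = x.1.1 := congrArg Subtype.val (x.2 ⟨y, mem_zpowers y⟩)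
        have h5 : y * (x.1.1 : G) = x.1.1 * y := by
          calc y * (x.1.1 : G) = (y * (x.1.1 : G) * y⁻¹) * y := by group
            _ = x.1.1 * y := by rw [h4]
        exact h5.symm
      exact Subtype.ext ((hall x).trans (hall z).symm)
    rw [h3] at h1
    apply ha
    exact (Nat.modEq_iff_dvd' (Nat.one_le_pow _ _ hp.out.pos)).1 h1.symm
  obtain ⟨x, hx, hx1, hxy⟩ := h2
  have hxo : ∃ b, orderOf x = p ^ b := by
    have h3 : orderOf (⟨x, hx⟩ : P) ∣ p ^ a := by rw [← hP]; exact orderOf_dvd_natCard _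
    rw [Subgroup.orderOf_mk] at h3
    obtain ⟨b, -, hb⟩ := (Nat.dvd_prime_pow hp.out).1 h3
    exact ⟨b, hb⟩
  obtain ⟨b, hb⟩ := hxo
  have hb0 : b ≠ 0 := by
    rintro rfl
    rw [pow_zero, orderOf_eq_one_iff] at hb
    exact hx1 hb
  obtain ⟨c, rfl⟩ : ∃ c, b = c + 1 := ⟨b - 1, by omega⟩
  refine ⟨x ^ p ^ c * y, ?_⟩
  have h3 : orderOf (x ^ p ^ c) = p := by
    rw [orderOf_pow, hb, pow_succ, Nat.gcd_eq_right (Dvd.intro _ rfl), Nat.mul_div_cancel_left _ (pow_pos hp.out.pos c)]
  rw [(hxy.pow_left _).orderOf_mul_eq_mul_orderOf_of_coprime, h3, hyo]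
  rw [h3, hyo]
  exact (Nat.coprime_primes hp.out hq.out).2 hpq

/-- If `p` divides `|N|` and `q` divides `|G / N|` then there is an element of order `p q` -/
theorem exists_of_normal {p q : ℕ} [hp : Fact p.Prime] [hq : Fact q.Prime] (hpq : p ≠ q)
    (hH : ∀ a, 1 ≤ a → p ^ a ∣ Nat.card G → ¬ q ∣ p ^ a - 1) (N : Subgroup G) [N.Normal]
    (h1 : p ∣ Nat.card N) (h2 : q ∣ N.index) : ∃ g : G, orderOf g = p * q := by
  obtain ⟨P⟩ : Nonempty (Sylow p N) := inferInstance
  have hfr := Sylow.normalizer_sup_eq_top P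
  set Q : Subgroup G := (P : Subgroup N).map N.subtype with hQ
  have hQc : Nat.card Q = Nat.card (P : Subgroup N) := Nat.card_congr ((P : Subgroup N).equivMapOfInjective N.subtype (Subgroup.subtype_injective N)).symm.toEquiv
  obtain ⟨a, ha⟩ : ∃ a, Nat.card (P : Subgroup N) = p ^ a := IsPGroup.iff_card.1 P.2
  have hdp : p ∣ Nat.card (P : Subgroup N) := P.dvd_card_of_dvd_card h1
  have ha1 : 1 ≤ a := by
    by_contra hc
    have ha0 : a = 0 := by omega
    rw [ha, ha0, pow_zero] at hdp
    exact hp.out.one_lt.ne' (Nat.dvd_one.1 hdp)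
  have e1 : Nat.card (P : Subgroup N) ∣ Nat.card N := Subgroup.card_subgroup_dvd_card _
  have e2 : Nat.card N ∣ Nat.card G := Subgroup.card_subgroup_dvd_card _
  have haG : p ^ a ∣ Nat.card G := by
    rw [← ha]
    exact e1.trans e2
  have h3 : q ∣ Nat.card (normalizer (Q : Set G)) := by
    have h4 : N.index = N.relIndex (normalizer (Q : Set G)) := by
      have h5 : N.relIndex (normalizer (Q : Set G) ⊔ N) = N.relIndex (normalizer (Q : Set G)) := Subgroup.relIndex_sup_right _ _
      rw [← h5, hfr, relIndex_top_right]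
    rw [h4] at h2
    exact h2.trans (relIndex_dvd_card _ _)
  obtain ⟨y, hy⟩ := exists_prime_orderOf_dvd_card' q h3
  exact exists_pq hpq (hQc.trans ha) y.2 (by rw [Subgroup.orderOf_coe]; exact hy) (hH a ha1 haG)

theorem not_solvable {p q : ℕ} [hp : Fact p.Prime] [hq : Fact q.Prime] (hpq : p ≠ q)
    (hH : ∀ a, 1 ≤ a → p ^ a ∣ Nat.card G → ¬ q ∣ p ^ a - 1)
    (hH' : ∀ a, 1 ≤ a → q ^ a ∣ Nat.card G → ¬ p ∣ q ^ a - 1)
    (hno : ∀ g : G, orderOf g ≠ p * q) (hpG : p ∣ Nat.card G) (hqG : q ∣ Nat.card G) : ¬ Group.IsSolvable G := by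
  intro hsol
  have c1 : ∀ N : Subgroup G, N.Normal → p ∣ Nat.card N → q ∣ Nat.card N := by
    intro N hN h
    by_contra hc
    have : q ∣ N.index := by
      have h3 := hqG
      rw [← N.card_mul_index] at h3
      exact (hq.out.dvd_mul.1 h3).resolve_left hc
    obtain ⟨g, hg⟩ := exists_of_normal hpq hH N h this
    exact hno g hg
  have c2 : ∀ N : Subgroup G, N.Normal → q ∣ Nat.card N → p ∣ Nat.card N := by
    intro N hN h
    by_contra hc
    have : p ∣ N.index := by
      have h3 := hpG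
      rw [← N.card_mul_index] at h3
      exact (hp.out.dvd_mul.1 h3).resolve_left hc
    obtain ⟨g, hg⟩ := exists_of_normal hpq.symm hH' N h this
    exact hno g (by rw [hg, mul_comm])
  obtain ⟨N, ⟨hN, hNp⟩, hmax⟩ := (Set.toFinite {N : Subgroup G | N.Normal ∧ ¬ p ∣ Nat.card N}).exists_maximal
    ⟨⊥, by
      refine ⟨inferInstance, ?_⟩
      rw [Subgroup.card_bot]
      intro h
      exact hp.out.one_lt.ne' (Nat.dvd_one.1 h)⟩
  have hNt : N ≠ ⊤ := by
    rintro rfl
    rw [Subgroup.card_top] at hNp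
    exact hNp hpG
  haveI : Nontrivial (G ⧸ N) := by
    rw [← not_subsingleton_iff_nontrivial]
    intro hs
    apply hNt
    rw [← Subgroup.index_eq_one]
    exact Nat.card_unique
  have hsolq : Group.IsSolvable (G ⧸ N) := by
    obtain ⟨n, hn⟩ := hsol
    refine ⟨n, ?_⟩
    rw [← map_derivedSeries_eq (QuotientGroup.mk'_surjective N), hn, Subgroup.map_bot]
  obtain ⟨r, hr, hne⟩ := H37.QuadCore.exists_pCore_ne_bot hsolq
  haveI : Fact r.Prime := ⟨hr⟩
  set H : Subgroup G := (pCore r (G ⧸ N)).comap (QuotientGroup.mk' N) with hH0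
  have hHn : H.Normal := by
    haveI : (pCore r (G ⧸ N)).Normal := inferInstance
    infer_instance
  have hNH : N < H := by
    refine lt_of_le_of_ne ?_ ?_
    · intro x hx
      rw [hH0, mem_comap]
      have : (QuotientGroup.mk' N) x = 1 := by
        rw [QuotientGroup.mk'_apply, QuotientGroup.eq_one_iff]; exact hx
      rw [this]; exact one_mem _
    · intro h
      apply hne
      rw [eq_bot_iff]
      intro x hx
      obtain ⟨g, rfl⟩ := QuotientGroup.mk'_surjective N x
      have : g ∈ H := hx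
      rw [← h] at this
      rw [mem_bot, QuotientGroup.mk'_apply, QuotientGroup.eq_one_iff]
      exact this
  have hpH : p ∣ Nat.card H := by
    by_contra hc
    exact absurd (hmax ⟨hHn, hc⟩ hNH.le) (not_le_of_gt hNH)
  have hqH := c1 H hHn hpH
  have hNq : ¬ q ∣ Nat.card N := fun h => hNp (c2 N hN h)
  have hcard : Nat.card H = Nat.card N * Nat.card (pCore r (G ⧸ N)) := by
    have h1 := Subgroup.card_mul_index (N.subgroupOf H)
    have h2 : Nat.card (N.subgroupOf H) = Nat.card N := Nat.card_congr (Subgroup.subgroupOfEquivOfLe hNH.le).toEquiv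
    have h3 : N.relIndex H = Nat.card (pCore r (G ⧸ N)) := by
      have h4 := Subgroup.relIndex_ker (K := H) (QuotientGroup.mk' N)
      rw [QuotientGroup.ker_mk', hH0, Subgroup.map_comap_eq_self_of_surjective (QuotientGroup.mk'_surjective N)] at h4
      exact h4
    rw [← h1, h2]
    exact congrArg _ h3
  obtain ⟨k, hk⟩ := IsPGroup.iff_card.1 (H13.Cores.isPGroup_pCore (p := r) (G := G ⧸ N))
  rw [hcard, hk] at hpH hqH
  have e1 : p = r := (Nat.prime_dvd_prime_iff_eq hp.out hr).1 (hp.out.dvd_of_dvd_pow ((hp.out.dvd_mul.1 hpH).resolve_left hNp))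
  have e2 : q = r := (Nat.prime_dvd_prime_iff_eq hq.out hr).1 (hq.out.dvd_of_dvd_pow ((hq.out.dvd_mul.1 hqH).resolve_left hNq))
  exact hpq (e1.trans e2.symm)

/-! ### elements of the alternating group -/

theorem exists_mem_of_dvd_lcm {s : Multiset ℕ} {p : ℕ} (hp : p.Prime) (h : p ∣ s.lcm) : ∃ m ∈ s, p ∣ m := by
  induction s using Multiset.induction with
  | empty =>
    rw [Multiset.lcm_zero] at h
    exact absurd (Nat.dvd_one.1 h) hp.one_lt.ne'
  | cons a s ih =>
    rw [Multiset.lcm_cons] at h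
    have h1 : p ∣ a * s.lcm := h.trans (lcm_dvd_mul _ _)
    rcases hp.dvd_mul.1 h1 with h2 | h2
    · exact ⟨a, Multiset.mem_cons_self a s, h2⟩
    · obtain ⟨m, hm, hpm⟩ := ih h2
      exact ⟨m, Multiset.mem_cons_of_mem hm, hpm⟩

theorem perm_no_pq {n p q : ℕ} (hp : p.Prime) (hq : q.Prime) (hpq : p ≠ q) (h1 : n < p + q) (h2 : n < p * q)
    (σ : Equiv.Perm (Fin n)) : orderOf σ ≠ p * q := by
  intro ho
  have hl := σ.lcm_cycleType
  rw [ho] at hl
  obtain ⟨m, hm, hpm⟩ := exists_mem_of_dvd_lcm hp (s := σ.cycleType) (by rw [hl]; exact dvd_mul_right _ _)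
  obtain ⟨m', hm', hqm⟩ := exists_mem_of_dvd_lcm hq (s := σ.cycleType) (by rw [hl]; exact dvd_mul_left _ _)
  have hsum : σ.cycleType.sum ≤ n := by
    have := σ.sum_cycleType
    rw [this]
    calc σ.support.card ≤ Fintype.card (Fin n) := Finset.card_le_univ _
      _ = n := Fintype.card_fin n
  have hpos : ∀ k ∈ σ.cycleType, 0 < k := fun k hk => by
    have := Equiv.Perm.two_le_of_mem_cycleType hk
    omega
  by_cases he : m = m'
  · subst he
    have h3 : p * q ∣ m := Nat.Coprime.mul_dvd_of_dvd_of_dvd ((Nat.coprime_primes hp hq).2 hpq) hpm hqm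
    have h4 := Nat.le_of_dvd (hpos m hm) h3
    have h5 : m ≤ σ.cycleType.sum := Multiset.le_sum_of_mem hm
    omega
  · obtain ⟨t, ht⟩ := Multiset.exists_cons_of_mem hm
    have hm2 : m' ∈ t := by
      rw [ht, Multiset.mem_cons] at hm'
      exact hm'.resolve_left (fun h => he h.symm)
    have h5 : m' ≤ t.sum := Multiset.le_sum_of_mem hm2
    rw [ht, Multiset.sum_cons] at hsum
    have h6 := Nat.le_of_dvd (hpos m hm) hpm
    have h7 := Nat.le_of_dvd (hpos m' hm') hqm
    omega

theorem no_pq {n p q : ℕ} (hp : p.Prime) (hq : q.Prime) (hpq : p ≠ q) (h1 : n < p + q) (h2 : n < p * q)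
    (hspec : Set.range (orderOf : G → ℕ) = Set.range (orderOf : ↥(alternatingGroup (Fin n)) → ℕ)) (g : G) :
    orderOf g ≠ p * q := by
  intro ho
  have : p * q ∈ Set.range (orderOf : ↥(alternatingGroup (Fin n)) → ℕ) := by
    rw [← hspec]; exact ⟨g, ho⟩
  obtain ⟨σ, hσ⟩ := this
  exact perm_no_pq hp hq hpq h1 h2 (σ : Equiv.Perm (Fin n)) (by rw [Subgroup.orderOf_coe]; exact hσ)

theorem card_alt {n : ℕ} (hn : 2 ≤ n) (hcard : Nat.card G = Nat.card ↥(alternatingGroup (Fin n))) :
    2 * Nat.card G = n.factorial := by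
  haveI : Nontrivial (Fin n) := Fin.nontrivial_iff_two_le.2 hn
  rw [hcard, nat_card_alternatingGroup, Nat.card_fin]
  exact Nat.mul_div_cancel' (Nat.dvd_factorial (by norm_num) hn)

/-- primes in `(n/2, n]` divide the order exactly once -/
theorem dvd_card {n : ℕ} (hn : 2 ≤ n) (hcard : Nat.card G = Nat.card ↥(alternatingGroup (Fin n)))
    {p : ℕ} (hp : p.Prime) (hp2 : p ≠ 2) (hpn : p ≤ n) : p ∣ Nat.card G := by
  have h1 := card_alt hn hcard
  have h2 : p ∣ 2 * Nat.card G := by rw [h1]; exact Nat.dvd_factorial hp.pos hpn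
  exact (hp.dvd_mul.1 h2).resolve_left (fun h => hp2 ((Nat.prime_dvd_prime_iff_eq hp Nat.prime_two).1 h))

theorem not_sq_dvd {n : ℕ} (hn : 2 ≤ n) (hcard : Nat.card G = Nat.card ↥(alternatingGroup (Fin n)))
    {p : ℕ} (hp : p.Prime) (hp2 : p ≠ 2) (hpn : p ≤ n) (hn2 : n < 2 * p) : ¬ p ^ 2 ∣ Nat.card G := by
  intro h
  have h1 := card_alt hn hcard
  have h2 : p ^ 2 ∣ n.factorial := by rw [← h1]; exact h.mul_left 2
  have h3 := (hp.pow_dvd_factorial_iff (n := n) (r := 2) (b := n + 1) (by
    have := Nat.log_le_self p n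
    omega)).1 h2
  have h4 : ∑ i ∈ Finset.Ico 1 (n + 1), n / p ^ i ≤ 1 := by
    calc ∑ i ∈ Finset.Ico 1 (n + 1), n / p ^ i = ∑ i ∈ Finset.Ico 1 (n + 1), (if i = 1 then n / p else 0) := by
          refine Finset.sum_congr rfl fun i hi => ?_
          rw [Finset.mem_Ico] at hi
          split_ifs with h5
          · rw [h5, pow_one]
          · rw [Nat.div_eq_zero_iff]
            right
            calc n < 2 * p := hn2
              _ ≤ p * p := Nat.mul_le_mul_right _ hp.two_le
              _ = p ^ 2 := (pow_two p).symm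
              _ ≤ p ^ i := Nat.pow_le_pow_right hp.pos (by omega)
      _ = n / p := by rw [Finset.sum_ite_eq']; rw [if_pos (by rw [Finset.mem_Ico]; have := hp.pos; omega)]
      _ ≤ 1 := by
          have : n / p < 2 := Nat.div_lt_of_lt_mul (by omega)
          omega
  omega

/-- the arithmetic condition for two primes in `(n/2, n]` -/
theorem cond {n : ℕ} (hn : 5 ≤ n) (hcard : Nat.card G = Nat.card ↥(alternatingGroup (Fin n)))
    {p q : ℕ} (hp : p.Prime) (hq : q.Prime) (hpq : p ≠ q) (hp1 : n < 2 * p) (hp2 : p ≤ n)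
    (hq1 : n < 2 * q) (hq2 : q ≤ n) (a : ℕ) (ha : 1 ≤ a) (hd : p ^ a ∣ Nat.card G) : ¬ q ∣ p ^ a - 1 := by
  have ha1 : a = 1 := by
    by_contra hc
    exact not_sq_dvd (by omega) hcard hp (by omega) hp2 hp1 ((pow_dvd_pow p (by omega : 2 ≤ a)).trans hd)
  subst ha1
  rw [pow_one]
  rintro ⟨k, hk⟩
  have hk2 : k < 2 := by
    by_contra hc
    have : q * 2 ≤ q * k := Nat.mul_le_mul_left _ (by omega)
    omega
  have hk1 : k = 1 := by
    have : k ≠ 0 := by
      rintro rfl
      have := hp.two_le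
      omega
    omega
  rw [hk1, mul_one] at hk
  rcases hp.eq_two_or_odd with h | h
  · omega
  rcases hq.eq_two_or_odd with h' | h'
  · omega
  omega

theorem exists_simple {p q : ℕ} [hp : Fact p.Prime] [hq : Fact q.Prime] (hpq : p ≠ q)
    (hp2 : ¬ p ^ 2 ∣ Nat.card G)
    (hH : ∀ a, 1 ≤ a → p ^ a ∣ Nat.card G → ¬ q ∣ p ^ a - 1)
    (hH' : ∀ a, 1 ≤ a → q ^ a ∣ Nat.card G → ¬ p ∣ q ^ a - 1)
    (hno : ∀ g : G, orderOf g ≠ p * q) (hpG : p ∣ Nat.card G) (hqG : q ∣ Nat.card G) :
    ∃ (N H : Subgroup G) (_ : N.Normal), H.Normal ∧ N < H ∧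
      IsSimpleGroup (↥H ⧸ N.subgroupOf H) ∧ ¬ IsMulCommutative (↥H ⧸ N.subgroupOf H) ∧
      p ∣ Nat.card H ∧ ¬ p ∣ Nat.card N := by
  have c1 : ∀ N : Subgroup G, N.Normal → p ∣ Nat.card N → q ∣ Nat.card N := by
    intro N hN h
    by_contra hc
    have : q ∣ N.index := by
      have h3 := hqG
      rw [← N.card_mul_index] at h3
      exact (hq.out.dvd_mul.1 h3).resolve_left hc
    obtain ⟨g, hg⟩ := exists_of_normal hpq hH N h this
    exact hno g hg
  have c2 : ∀ N : Subgroup G, N.Normal → q ∣ Nat.card N → p ∣ Nat.card N := by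
    intro N hN h
    by_contra hc
    have : p ∣ N.index := by
      have h3 := hpG
      rw [← N.card_mul_index] at h3
      exact (hp.out.dvd_mul.1 h3).resolve_left hc
    obtain ⟨g, hg⟩ := exists_of_normal hpq.symm hH' N h this
    exact hno g (by rw [hg, mul_comm])
  set N := pPrimeCore p G with hN0
  haveI hN : N.Normal := inferInstance
  have hNp : ¬ p ∣ Nat.card N := fun h => by
    have := H13.Cores.coprime_card_pPrimeCore (p := p) (G := G)
    exact (Nat.Prime.coprime_iff_not_dvd hp.out).1 this.symm h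
  have hNle : ∀ K : Subgroup G, K.Normal → ¬ p ∣ Nat.card K → K ≤ N := fun K hK h =>
    H13.Cores.le_pPrimeCore hK ((Nat.Prime.coprime_iff_not_dvd hp.out).2 h).symm
  have hNtop : N < ⊤ := by
    refine lt_of_le_of_ne le_top ?_
    intro h
    rw [h, Subgroup.card_top] at hNp
    exact hNp hpG
  obtain ⟨H, ⟨hHn, hNH⟩, hmin⟩ := (Set.toFinite {H : Subgroup G | H.Normal ∧ N < H}).exists_minimal
    ⟨⊤, inferInstance, hNtop⟩
  have hpH : p ∣ Nat.card H := by
    by_contra h
    exact absurd (hNle H hHn h) (not_le_of_gt hNH)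
  have hmin' : ∀ K : Subgroup G, K.Normal → N ≤ K → K ≤ H → K = N ∨ K = H := by
    intro K hK h1 h2
    by_cases h3 : K = N
    · exact Or.inl h3
    · right
      exact le_antisymm h2 (hmin ⟨hK, lt_of_le_of_ne h1 (Ne.symm h3)⟩ h2)
  have hp2H : ¬ p ^ 2 ∣ Nat.card H := fun h => hp2 (h.trans (Subgroup.card_subgroup_dvd_card _))
  have hsimple : IsSimpleGroup (↥H ⧸ N.subgroupOf H) := by
    -- simplicity
    have hcrit : ∀ K : Subgroup H, K.Normal → N.subgroupOf H ≤ K → K = N.subgroupOf H ∨ K = ⊤ := by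
      intro K hK hNK
      by_cases hpK : p ∣ Nat.card K
      · right
        -- all elements of order `p` of `H` are in `K`
        have hidx : ¬ p ∣ K.index := by
          intro h
          apply hp2H
          rw [← K.card_mul_index, pow_two]
          exact mul_dvd_mul hpK h
        have hel : ∀ x : H, orderOf x = p → x ∈ K := by
          intro x hx
          rw [← QuotientGroup.eq_one_iff, ← orderOf_eq_one_iff]
          have h1 : orderOf (x : H ⧸ K) ∣ p := by rw [← hx]; exact orderOf_map_dvd (QuotientGroup.mk' K) x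
          rcases (Nat.dvd_prime hp.out).1 h1 with h2 | h2
          · exact h2
          · exfalso
            apply hidx
            rw [← h2]
            exact orderOf_dvd_natCard _
        let T : Subgroup G := Subgroup.closure {x : G | x ∈ H ∧ orderOf x = p}
        have hTn : T.Normal := by
          refine ⟨fun t ht g => ?_⟩
          have h1 : T ≤ T.comap (MulAut.conj g).toMonoidHom := by
            rw [Subgroup.closure_le]
            rintro x ⟨hxH, hxo⟩
            apply Subgroup.subset_closure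
            refine ⟨hHn.conj_mem x hxH g, ?_⟩
            have := MulEquiv.orderOf_eq (MulAut.conj g) x
            rw [hxo] at this
            exact this
          exact h1 ht
        have hTH : T ≤ H := by
          rw [Subgroup.closure_le]
          exact fun x hx => hx.1
        obtain ⟨y, hy⟩ := exists_prime_orderOf_dvd_card' p hpH
        have hyT : (y : G) ∈ T := Subgroup.subset_closure ⟨y.2, by rw [Subgroup.orderOf_coe]; exact hy⟩
        have hyN : (y : G) ∉ N := by
          intro h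
          apply hNp
          have h1 : orderOf (⟨(y : G), h⟩ : N) ∣ Nat.card N := orderOf_dvd_natCard _
          rwa [Subgroup.orderOf_mk, Subgroup.orderOf_coe, hy] at h1
        have hTN : N ⊔ T = H := by
          rcases hmin' (N ⊔ T) (Subgroup.sup_normal N T) le_sup_left (sup_le hNH.le hTH) with h | h
          · exfalso
            apply hyN
            rw [← h]
            exact Subgroup.mem_sup_right hyT
          · exact h
        have hle : H ≤ K.map H.subtype := by
          refine hTN.symm.le.trans (sup_le ?_ ?_)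
          · intro x hx
            exact ⟨⟨x, hNH.le hx⟩, hNK (Subgroup.mem_subgroupOf.2 hx), rfl⟩
          · rw [Subgroup.closure_le]
            rintro x ⟨hxH, hxo⟩
            exact ⟨⟨x, hxH⟩, hel ⟨x, hxH⟩ (by rw [Subgroup.orderOf_mk]; exact hxo), rfl⟩
        rw [eq_top_iff]
        intro x _
        obtain ⟨z, hz, hzx⟩ := hle x.2
        have : z = x := Subtype.ext hzx
        rw [← this]; exact hz
      · left
        refine le_antisymm ?_ hNK
        have h1 : K ≤ pPrimeCore p H := H13.Cores.le_pPrimeCore hK ((Nat.Prime.coprime_iff_not_dvd hp.out).2 hpK).symm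
        intro x hx
        rw [Subgroup.mem_subgroupOf]
        exact H13.Cores.map_pPrimeCore_le_of_normal H ⟨x, h1 hx, rfl⟩
    haveI : Nontrivial (↥H ⧸ N.subgroupOf H) := by
      rw [← not_subsingleton_iff_nontrivial]
      intro hs
      have h1 : (N.subgroupOf H).index = 1 := Nat.card_unique
      rw [Subgroup.index_eq_one, Subgroup.subgroupOf_eq_top] at h1
      exact not_le_of_gt hNH h1
    refine ⟨fun L hL => ?_⟩
    rcases hcrit (L.comap (QuotientGroup.mk' (N.subgroupOf H))) (hL.comap _) (by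
      intro x hx
      rw [Subgroup.mem_comap, QuotientGroup.mk'_apply, (QuotientGroup.eq_one_iff x).2 hx]
      exact one_mem _) with h | h
    · left
      rw [eq_bot_iff]
      intro x hx
      obtain ⟨y, rfl⟩ := QuotientGroup.mk'_surjective _ x
      have : y ∈ L.comap (QuotientGroup.mk' (N.subgroupOf H)) := hx
      rw [h] at this
      rw [Subgroup.mem_bot, QuotientGroup.mk'_apply]
      exact (QuotientGroup.eq_one_iff y).2 this
    · right
      rw [eq_top_iff]
      intro x _
      obtain ⟨y, rfl⟩ := QuotientGroup.mk'_surjective _ x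
      have : y ∈ L.comap (QuotientGroup.mk' (N.subgroupOf H)) := by rw [h]; trivial
      exact this
  refine ⟨N, H, hN, hHn, hNH, hsimple, ?_, hpH, hNp⟩
  intro hcomm
  have hquot : ∀ r : ℕ, r.Prime → r ∣ Nat.card H → ¬ r ∣ Nat.card N → r ∣ Nat.card (↥H ⧸ N.subgroupOf H) := by
    intro r hr h1 h2
    have h3 := Subgroup.card_mul_index (N.subgroupOf H)
    have h4 : Nat.card (N.subgroupOf H) = Nat.card N := Nat.card_congr (Subgroup.subgroupOfEquivOfLe hNH.le).toEquiv
    rw [← h3, h4] at h1
    exact (hr.dvd_mul.1 h1).resolve_left h2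
  have hpA := hquot p hp.out hpH hNp
  have hqA := hquot q hq.out (c1 H hHn hpH) (fun h => hNp (c2 N hN h))
  obtain ⟨x, hx⟩ := exists_prime_orderOf_dvd_card' p hpA
  have hxn : (zpowers x).Normal := by
    refine ⟨fun a ha b => ?_⟩
    have : b * a = a * b := hcomm.is_comm.comm b a
    rw [this, mul_assoc, mul_inv_cancel, mul_one]
    exact ha
  rcases hsimple.eq_bot_or_eq_top_of_normal (zpowers x) hxn with h | h
  · rw [Subgroup.zpowers_eq_bot] at h
    rw [h, orderOf_one] at hx
    exact hp.out.one_lt.ne hx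
  · have h1 : Nat.card (↥H ⧸ N.subgroupOf H) = p := by
      rw [← Subgroup.card_top, ← h, Nat.card_zpowers, hx]
    rw [h1] at hqA
    exact hpq ((Nat.prime_dvd_prime_iff_eq hq.out hp.out).1 hqA).symm

end H70.AltSpec
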