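import Mathlib
set_option autoImplicit false
set_option linter.unusedVariables false
set_option linter.style.haveILetI false

namespace H70.Deg2

theorem num {r1 r2 r3 s1 s2 s3 N : ℕ} (h12 : r1 ≤ r2) (h23 : r2 ≤ r3) (hr1 : 2 ≤ r1)
    (hs1 : 3 ≤ s1) (hs2 : 3 ≤ s2) (hs3 : 3 ≤ s3) (e1 : r1 * s1 = N) (e2 : r2 * s2 = N) (e3 : r3 * s3 = N)
    (h : s1 + s2 + s3 = N + 2) : N = 12 ∨ N = 24 ∨ N = 60 := by
  have h1 : r1 < 3 := by
    by_contra hc
    have a1 : 3 * s1 ≤ N := by rw [← e1]; exact Nat.mul_le_mul_right _ (by omega)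
    have a2 : 3 * s2 ≤ N := by rw [← e2]; exact Nat.mul_le_mul_right _ (by omega)
    have a3 : 3 * s3 ≤ N := by rw [← e3]; exact Nat.mul_le_mul_right _ (by omega)
    omega
  have h1' : r1 = 2 := by omega
  subst h1'
  have h2 : r2 < 4 := by
    by_contra hc
    have a2 : 4 * s2 ≤ N := by rw [← e2]; exact Nat.mul_le_mul_right _ (by omega)
    have a3 : 4 * s3 ≤ N := by rw [← e3]; exact Nat.mul_le_mul_right _ (by omega)
    omega
  have h2' : r2 = 3 := by
    by_contra hc
    have : r2 = 2 := by omega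
    subst this
    omega
  subst h2'
  have h3 : r3 < 6 := by
    by_contra hc
    have a3 : 6 * s3 ≤ N := by rw [← e3]; exact Nat.mul_le_mul_right _ (by omega)
    omega
  have : r3 = 3 ∨ r3 = 4 ∨ r3 = 5 := by omega
  rcases this with rfl | rfl | rfl <;> omega

theorem num' {r1 r2 r3 s1 s2 s3 N : ℕ} (hr1 : 2 ≤ r1) (hr2 : 2 ≤ r2) (hr3 : 2 ≤ r3)
    (hs1 : 3 ≤ s1) (hs2 : 3 ≤ s2) (hs3 : 3 ≤ s3) (e1 : r1 * s1 = N) (e2 : r2 * s2 = N) (e3 : r3 * s3 = N)
    (h : s1 + s2 + s3 = N + 2) : N = 12 ∨ N = 24 ∨ N = 60 := by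
  rcases le_total r1 r2 with h12 | h12 <;> rcases le_total r2 r3 with h23 | h23 <;>
    rcases le_total r1 r3 with h13 | h13
  · exact num h12 h23 hr1 hs1 hs2 hs3 e1 e2 e3 h
  · exact num h12 h23 hr1 hs1 hs2 hs3 e1 e2 e3 h
  · exact num h13 h23 hr1 hs1 hs3 hs2 e1 e3 e2 (by omega)
  · exact num h13 h12 hr3 hs3 hs1 hs2 e3 e1 e2 (by omega)
  · exact num h12 h13 hr2 hs2 hs1 hs3 e2 e1 e3 (by omega)
  · exact num h23 h13 hr2 hs2 hs3 hs1 e2 e3 e1 (by omega)
  · exact num h23 h12 hr3 hs3 hs2 hs1 e3 e2 e1 (by omega)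
  · exact num h23 h12 hr3 hs3 hs2 hs1 e3 e2 e1 (by omega)

open MulAction

theorem count {G X : Type*} [Group G] [Finite G] [Finite X] [MulAction G X] (Z : Subgroup G) (hZ : Z ≠ ⊤)
    (h1 : ∀ z ∈ Z, ∀ x : X, z • x = x) (h2 : ∀ g, g ∉ Z → Nat.card (fixedBy X g) = 2)
    (h3 : ∀ x : X, ∃ g ∈ stabilizer G x, g ∉ Z) :
    (∃ x : X, (stabilizer G x).index ≤ 2) ∨ Z.index = 12 ∨ Z.index = 24 ∨ Z.index = 60 := by
  classical
  by_cases hc : ∃ x : X, (stabilizer G x).index ≤ 2
  · exact Or.inl hc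
  right
  push Not at hc
  letI := Fintype.ofFinite G
  letI := Fintype.ofFinite X
  let Ω := orbitRel.Quotient G X
  letI : Fintype Ω := Fintype.ofFinite Ω
  have hB := sum_card_fixedBy_eq_card_orbits_mul_card_group G X
  have hB1 : ∑ g : G, Fintype.card (fixedBy X g) = Nat.card Z * Nat.card X + 2 * (Nat.card G - Nat.card Z) := by
    have hs : ∀ g : G, Fintype.card (fixedBy X g) = if g ∈ Z then Nat.card X else 2 := by
      intro g
      split_ifs with hg
      · rw [← Nat.card_eq_fintype_card]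
        have : fixedBy X g = Set.univ := by
          ext x; simp [mem_fixedBy, h1 g hg x]
        rw [this, Nat.card_univ]
      · rw [← Nat.card_eq_fintype_card]; exact h2 g hg
    rw [Finset.sum_congr rfl (fun g _ => hs g), Finset.sum_ite, Finset.sum_const, Finset.sum_const]
    have c1 : (Finset.univ.filter (fun g : G => g ∈ Z)).card = Nat.card Z := by
      rw [Nat.card_eq_fintype_card, Fintype.card_subtype]
    have c2 : (Finset.univ.filter (fun g : G => g ∉ Z)).card = Nat.card G - Nat.card Z := by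
      have := Finset.card_filter_add_card_filter_not (s := (Finset.univ : Finset G)) (fun g : G => g ∈ Z)
      rw [c1, Finset.card_univ, ← Nat.card_eq_fintype_card] at this
      omega
    rw [c1, c2, smul_eq_mul, smul_eq_mul, mul_comm _ 2]
  set N := Z.index with hN
  have hGN : Nat.card Z * N = Nat.card G := Z.card_mul_index
  have hZ0 : 0 < Nat.card Z := Nat.card_pos
  have hN1 : N ≠ 1 := by rw [hN, Ne, Subgroup.index_eq_one]; exact hZ
  have hN0 : N ≠ 0 := Subgroup.index_ne_zero_of_finite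
  -- main equation
  have hE : Nat.card X + 2 * N = Fintype.card Ω * N + 2 := by
    rw [hB1, ← Nat.card_eq_fintype_card (α := G), ← hGN] at hB
    have : Nat.card Z * (Nat.card X + 2 * (N - 1)) = Nat.card Z * (Fintype.card Ω * N) := by
      calc Nat.card Z * (Nat.card X + 2 * (N - 1)) = Nat.card Z * Nat.card X + 2 * (Nat.card Z * N - Nat.card Z) := by
            rw [mul_add, ← Nat.mul_sub_one]; ring
        _ = _ := by rw [hB]; ring
    have := Nat.eq_of_mul_eq_mul_left hZ0 this
    omega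
  let s : Ω → ℕ := fun ω => (stabilizer G (Quotient.out ω : X)).index
  have hX : Nat.card X = ∑ ω : Ω, s ω := by
    rw [Nat.card_congr (selfEquivSigmaOrbits G X), Nat.card_sigma]
    refine Finset.sum_congr rfl fun ω _ => ?_
    exact (MulAction.index_stabilizer G _).symm
  have hZs : ∀ x : X, Z ≤ stabilizer G x := fun x z hz => h1 z hz x
  have hr : ∀ x : X, ∃ r : ℕ, 2 ≤ r ∧ r * (stabilizer G x).index = N := by
    intro x
    refine ⟨Z.relIndex (stabilizer G x), ?_, Subgroup.relIndex_mul_index (hZs x)⟩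
    have h0 : Z.relIndex (stabilizer G x) ≠ 0 := (Subgroup.index_ne_zero_of_finite (H := Z.subgroupOf (stabilizer G x)))
    have h01 : Z.relIndex (stabilizer G x) ≠ 1 := by
      rw [Ne, Subgroup.relIndex_eq_one]
      intro hle
      obtain ⟨g, hg, hgZ⟩ := h3 x
      exact hgZ (hle hg)
    omega
  have hs3 : ∀ ω : Ω, 3 ≤ s ω := fun ω => hc _
  have hs2 : ∀ ω : Ω, 2 * s ω ≤ N := by
    intro ω
    obtain ⟨r, hr2, hr⟩ := hr (Quotient.out ω : X)
    rw [← hr]
    exact Nat.mul_le_mul_right _ hr2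
  have hk1 : 3 * Fintype.card Ω ≤ ∑ ω : Ω, s ω := by
    have := Finset.card_nsmul_le_sum (Finset.univ : Finset Ω) (fun ω => s ω) 3 (fun ω _ => hs3 ω)
    rw [Finset.card_univ, smul_eq_mul, mul_comm] at this
    exact this
  have hk2 : 2 * ∑ ω : Ω, s ω ≤ Fintype.card Ω * N := by
    rw [Finset.mul_sum]
    have := Finset.sum_le_card_nsmul (Finset.univ : Finset Ω) (fun ω => 2 * s ω) N (fun ω _ => hs2 ω)
    rw [Finset.card_univ, smul_eq_mul] at this
    exact this
  rw [hX] at hE
  have hk4 : Fintype.card Ω < 4 := by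
    by_contra hge
    have : 4 * N ≤ Fintype.card Ω * N := Nat.mul_le_mul_right _ (by omega)
    omega
  have hk3 : Fintype.card Ω = 3 := by
    have : Fintype.card Ω = 0 ∨ Fintype.card Ω = 1 ∨ Fintype.card Ω = 2 ∨ Fintype.card Ω = 3 := by omega
    rcases this with h | h | h | h
    · rw [h] at hk1 hk2 hE; omega
    · rw [h] at hk1 hk2 hE; omega
    · rw [h] at hk1 hk2 hE; omega
    · exact h
  obtain ⟨a, b, c, hab, hac, hbc, huniv⟩ := Finset.card_eq_three.1 (Finset.card_univ.trans hk3)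
  rw [huniv, Finset.sum_insert (by simp [hab, hac]), Finset.sum_insert (by simp [hbc]), Finset.sum_singleton, hk3] at hE
  obtain ⟨r1, hr1, e1⟩ := hr (Quotient.out a : X)
  obtain ⟨r2, hr2, e2⟩ := hr (Quotient.out b : X)
  obtain ⟨r3, hr3, e3⟩ := hr (Quotient.out c : X)
  exact num' hr1 hr2 hr3 (hs3 a) (hs3 b) (hs3 c) e1 e2 e3 (by simp only [s] at hE ⊢; omega)


/-! ### linear algebra -/

section Lin
variable {V : Type*} [AddCommGroup V] [Module ℂ V] [FiniteDimensional ℂ V]

theorem two_eigen (f : Module.End ℂ V) {m : ℕ} (hm : 0 < m) (hf : f ^ m = 1)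
    (hns : ¬ ∃ c : ℂ, ∀ v, f v = c • v) :
    ∃ (v w : V) (a b : ℂ), a ≠ b ∧ v ≠ 0 ∧ w ≠ 0 ∧ f v = a • v ∧ f w = b • w := by
  have hss : f.IsSemisimple := by
    apply Module.End.isSemisimple_of_squarefree_aeval_eq_zero (p := Polynomial.X ^ m - 1)
    · apply Polynomial.Separable.squarefree
      have := Polynomial.separable_X_pow_sub_C (1 : ℂ) (n := m) (by exact_mod_cast hm.ne') one_ne_zero
      simpa using this
    · simp [hf]
  have htop : ⨆ μ : ℂ, f.eigenspace μ = ⊤ := hss.iSup_eigenspace_eq_top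
  by_contra hcon
  push Not at hcon
  apply hns
  by_cases hV : ∀ v : V, v = 0
  · exact ⟨1, fun v => by rw [hV v]; simp⟩
  push Not at hV
  obtain ⟨v0, hv0⟩ := hV
  have : ∃ a : ℂ, f.eigenspace a ≠ ⊥ := by
    by_contra hc
    push Not at hc
    simp only [hc, iSup_bot] at htop
    have : v0 ∈ (⊥ : Submodule ℂ V) := by rw [htop]; trivial
    exact hv0 ((Submodule.mem_bot ℂ).1 this)
  obtain ⟨a, ha⟩ := this
  obtain ⟨v, hv, hvne⟩ := (Submodule.ne_bot_iff _).1 ha
  have hother : ∀ b : ℂ, f.eigenspace b ≤ f.eigenspace a := by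
    intro b
    by_cases hab : a = b
    · rw [hab]
    · intro w hw
      by_cases hw0 : w = 0
      · rw [hw0]; exact Submodule.zero_mem _
      · exact absurd (Module.End.mem_eigenspace_iff.1 hw) (hcon v w a b hab hvne hw0 (Module.End.mem_eigenspace_iff.1 hv))
  have htop2 : f.eigenspace a = ⊤ := by
    rw [eq_top_iff, ← htop]
    exact iSup_le hother
  refine ⟨a, fun u => ?_⟩
  have : u ∈ f.eigenspace a := by rw [htop2]; trivial
  exact Module.End.mem_eigenspace_iff.1 this

theorem indep {f : Module.End ℂ V} {v w : V} {a b : ℂ} (hab : a ≠ b) (hv : v ≠ 0) (hw : w ≠ 0)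
    (hfv : f v = a • v) (hfw : f w = b • w) {x y : ℂ} (h : x • v + y • w = 0) : x = 0 ∧ y = 0 := by
  have h1 : f (x • v + y • w) = 0 := by rw [h, map_zero]
  rw [map_add, map_smul, map_smul, hfv, hfw] at h1
  have h2 : (y * (b - a)) • w = 0 := by
    calc (y * (b - a)) • w = (x • a • v + y • b • w) - a • (x • v + y • w) := by module
      _ = 0 := by rw [h1, h]; simp
  have hy : y = 0 := by
    rcases smul_eq_zero.1 h2 with h3 | h3
    · rcases mul_eq_zero.1 h3 with h4 | h4
      · exact h4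
      · exact absurd (sub_eq_zero.1 h4).symm hab
    · exact absurd h3 hw
  subst hy
  rw [zero_smul, add_zero] at h
  exact ⟨(smul_eq_zero.1 h).resolve_right hv, rfl⟩

theorem expand (hV : Module.finrank ℂ V = 2) {f : Module.End ℂ V} {v w : V} {a b : ℂ} (hab : a ≠ b)
    (hv : v ≠ 0) (hw : w ≠ 0) (hfv : f v = a • v) (hfw : f w = b • w) (u : V) :
    ∃ x y : ℂ, u = x • v + y • w := by
  have hli : LinearIndependent ℂ ![v, w] := by
    rw [LinearIndependent.pair_iff]
    intro x y h
    exact indep hab hv hw hfv hfw h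
  have hsp : Submodule.span ℂ (Set.range ![v, w]) = ⊤ := by
    apply hli.span_eq_top_of_card_eq_finrank
    simp [hV]
  have : u ∈ Submodule.span ℂ (Set.range ![v, w]) := by rw [hsp]; trivial
  rw [Matrix.range_cons_cons_empty, Submodule.mem_span_pair] at this
  obtain ⟨x, y, h⟩ := this
  exact ⟨x, y, h.symm⟩

theorem lines (hV : Module.finrank ℂ V = 2) {f : Module.End ℂ V} {v w : V} {a b : ℂ} (hab : a ≠ b)
    (hv : v ≠ 0) (hw : w ≠ 0) (hfv : f v = a • v) (hfw : f w = b • w) {L : Submodule ℂ V}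
    (hL : Module.finrank ℂ L = 1) (hf : ∀ x ∈ L, f x ∈ L) : L = ℂ ∙ v ∨ L = ℂ ∙ w := by
  obtain ⟨⟨u, hu⟩, hu0, hu1⟩ := finrank_eq_one_iff'.1 hL
  have hu0' : u ≠ 0 := fun h => hu0 (by ext; exact h)
  have hLu : L = ℂ ∙ u := by
    apply le_antisymm
    · intro z hz
      obtain ⟨c, hc⟩ := hu1 ⟨z, hz⟩
      rw [Submodule.mem_span_singleton]
      exact ⟨c, congrArg Subtype.val hc⟩
    · rw [Submodule.span_singleton_le_iff_mem]; exact hu
  obtain ⟨c, hc⟩ := hu1 ⟨f u, hf u hu⟩
  have hc' : c • u = f u := congrArg Subtype.val hc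
  obtain ⟨x, y, hxy⟩ := expand hV hab hv hw hfv hfw u
  have h1 : (x * (a - c)) • v + (y * (b - c)) • w = 0 := by
    have h2 : f u - c • u = 0 := by rw [hc', sub_self]
    rw [hxy, map_add, map_smul, map_smul, hfv, hfw] at h2
    rw [← h2]; module
  obtain ⟨h2, h3⟩ := indep hab hv hw hfv hfw h1
  by_cases hx : x = 0
  · right
    subst hx
    rw [zero_smul, zero_add] at hxy
    have hy : y ≠ 0 := fun h => hu0' (by rw [hxy, h, zero_smul])
    rw [hLu, hxy, Submodule.span_singleton_smul_eq (IsUnit.mk0 y hy)]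
  · left
    have hac : a = c := by
      rcases mul_eq_zero.1 h2 with h | h
      · exact absurd h hx
      · exact sub_eq_zero.1 h
    have hy : y = 0 := by
      rcases mul_eq_zero.1 h3 with h | h
      · exact h
      · exact absurd (hac.trans (sub_eq_zero.1 h).symm) hab
    subst hy
    rw [zero_smul, add_zero] at hxy
    rw [hLu, hxy, Submodule.span_singleton_smul_eq (IsUnit.mk0 x hx)]

theorem span_ne {f : Module.End ℂ V} {v w : V} {a b : ℂ} (hab : a ≠ b)
    (hv : v ≠ 0) (hw : w ≠ 0) (hfv : f v = a • v) (hfw : f w = b • w) : (ℂ ∙ v) ≠ (ℂ ∙ w) := by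
  intro h
  have : v ∈ (ℂ ∙ w) := by rw [← h]; exact Submodule.mem_span_singleton_self v
  obtain ⟨c, hc⟩ := Submodule.mem_span_singleton.1 this
  have := (indep hab hv hw hfv hfw (x := 1) (y := -c) (by rw [← hc]; module)).1
  exact one_ne_zero this

end Lin

/-! ### the representation -/

section Rep

variable {G V : Type*} [Group G] [Finite G] [AddCommGroup V] [Module ℂ V] [FiniteDimensional ℂ V]
  (ρ : Representation ℂ G V)

/-- the eigenlines of non-central elements -/
def X : Type _ := {L : Submodule ℂ V // Module.finrank ℂ L = 1 ∧ ∃ g : G, g ∉ Subgroup.center G ∧ ∀ x ∈ L, ρ g x ∈ L}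

theorem rho_inv_apply (g : G) (x : V) : ρ g⁻¹ (ρ g x) = x := by
  rw [← Module.End.mul_apply, ← map_mul, inv_mul_cancel, map_one, Module.End.one_apply]

theorem rho_apply_inv (g : G) (x : V) : ρ g (ρ g⁻¹ x) = x := by
  rw [← Module.End.mul_apply, ← map_mul, mul_inv_cancel, map_one, Module.End.one_apply]

theorem rho_inj (g : G) : Function.Injective (ρ g) := fun x y h => by
  rw [← rho_inv_apply ρ g x, h, rho_inv_apply]

theorem mem_map_iff (g : G) (L : Submodule ℂ V) (x : V) : x ∈ L.map (ρ g) ↔ ρ g⁻¹ x ∈ L := by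
  rw [Submodule.mem_map]
  constructor
  · rintro ⟨y, hy, rfl⟩; rw [rho_inv_apply]; exact hy
  · intro h; exact ⟨_, h, rho_apply_inv ρ g x⟩

instance actX : MulAction G (X ρ) where
  smul g L := ⟨L.1.map (ρ g), by
    rw [← (Submodule.equivMapOfInjective (ρ g) (rho_inj ρ g) L.1).finrank_eq]
    exact L.2.1, by
    obtain ⟨h, hh, hL⟩ := L.2.2
    refine ⟨g * h * g⁻¹, ?_, ?_⟩
    · intro hc
      apply hh
      have := (inferInstance : (Subgroup.center G).Normal).conj_mem _ hc g⁻¹
      simpa [mul_assoc] using this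
    · intro x hx
      rw [mem_map_iff] at hx ⊢
      have : ρ g⁻¹ (ρ (g * h * g⁻¹) x) = ρ h (ρ g⁻¹ x) := by
        rw [← Module.End.mul_apply, ← map_mul, ← Module.End.mul_apply, ← map_mul]
        congr 2
        group
      rw [this]
      exact hL _ hx⟩
  one_smul L := by
    apply Subtype.ext
    change L.1.map (ρ 1) = L.1
    rw [map_one]
    exact Submodule.map_id _
  mul_smul g h L := by
    apply Subtype.ext
    change L.1.map (ρ (g * h)) = (L.1.map (ρ h)).map (ρ g)
    rw [map_mul, ← Submodule.map_comp]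
    rfl

theorem smul_val (g : G) (L : X ρ) : (g • L).1 = L.1.map (ρ g) := rfl

theorem smul_eq_iff (g : G) (L : X ρ) : g • L = L ↔ ∀ x ∈ L.1, ρ g x ∈ L.1 := by
  constructor
  · intro h x hx
    have : ρ g x ∈ (g • L).1 := Submodule.mem_map_of_mem hx
    rw [h] at this; exact this
  · intro h
    apply Subtype.ext
    apply Submodule.eq_of_le_of_finrank_eq
    · rintro _ ⟨x, hx, rfl⟩; exact h x hx
    · rw [(g • L).2.1, L.2.1]

variable {ρ}

theorem not_scalar (hinj : Function.Injective ρ) {g : G} (hg : g ∉ Subgroup.center G) :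
    ¬ ∃ c : ℂ, ∀ v, ρ g v = c • v := by
  rintro ⟨c, hc⟩
  apply hg
  rw [Subgroup.mem_center_iff]
  intro h
  apply hinj
  rw [map_mul, map_mul]
  ext v
  simp only [Module.End.mul_apply, hc, map_smul]

theorem eigen (hinj : Function.Injective ρ) {g : G} (hg : g ∉ Subgroup.center G) :
    ∃ (v w : V) (a b : ℂ), a ≠ b ∧ v ≠ 0 ∧ w ≠ 0 ∧ ρ g v = a • v ∧ ρ g w = b • w := by
  apply two_eigen (ρ g) (m := orderOf g) (orderOf_pos g)
  · rw [← map_pow, pow_orderOf_eq_one, map_one]
  · exact not_scalar hinj hg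

theorem card_fixed (hinj : Function.Injective ρ) (hV : Module.finrank ℂ V = 2) {g : G}
    (hg : g ∉ Subgroup.center G) : Nat.card (MulAction.fixedBy (X ρ) g) = 2 := by
  obtain ⟨v, w, a, b, hab, hv, hw, hfv, hfw⟩ := eigen hinj hg
  have hLv : ∀ x ∈ (ℂ ∙ v), ρ g x ∈ (ℂ ∙ v) := by
    intro x hx
    obtain ⟨c, rfl⟩ := Submodule.mem_span_singleton.1 hx
    rw [map_smul, hfv]
    exact Submodule.smul_mem _ _ (Submodule.smul_mem _ _ (Submodule.mem_span_singleton_self v))
  have hLw : ∀ x ∈ (ℂ ∙ w), ρ g x ∈ (ℂ ∙ w) := by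
    intro x hx
    obtain ⟨c, rfl⟩ := Submodule.mem_span_singleton.1 hx
    rw [map_smul, hfw]
    exact Submodule.smul_mem _ _ (Submodule.smul_mem _ _ (Submodule.mem_span_singleton_self w))
  let P : X ρ := ⟨ℂ ∙ v, finrank_span_singleton hv, g, hg, hLv⟩
  let Q : X ρ := ⟨ℂ ∙ w, finrank_span_singleton hw, g, hg, hLw⟩
  have hPQ : P ≠ Q := fun h => span_ne hab hv hw hfv hfw (congrArg Subtype.val h)
  have : MulAction.fixedBy (X ρ) g = {P, Q} := by
    ext L
    rw [MulAction.mem_fixedBy, smul_eq_iff]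
    constructor
    · intro h
      rcases lines hV hab hv hw hfv hfw L.2.1 h with h1 | h1
      · left; exact Subtype.ext h1
      · right; exact Subtype.ext h1
    · rintro (h | h)
      · rw [h]; exact hLv
      · rw [h]; exact hLw
  rw [this, Nat.card_coe_set_eq, Set.ncard_pair hPQ]

theorem finite_X (hinj : Function.Injective ρ) (hV : Module.finrank ℂ V = 2) : Finite (X ρ) := by
  have h1 : (Set.univ : Set (X ρ)) = ⋃ g : {g : G // g ∉ Subgroup.center G}, MulAction.fixedBy (X ρ) g.1 := by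
    ext L
    constructor
    · intro _
      obtain ⟨g, hg, hL⟩ := L.2.2
      exact Set.mem_iUnion.2 ⟨⟨g, hg⟩, (smul_eq_iff ρ g L).2 hL⟩
    · intro _; trivial
  rw [← Set.finite_univ_iff, h1]
  apply Set.finite_iUnion
  intro g
  apply Set.finite_coe_iff.1
  apply Nat.finite_of_card_ne_zero
  rw [card_fixed hinj hV g.2]
  norm_num

theorem center_scalar (hV : Module.finrank ℂ V = 2)
    (hirr : ∀ L : Submodule ℂ V, (∀ g, ∀ x ∈ L, ρ g x ∈ L) → L = ⊥ ∨ L = ⊤) {z : G}
    (hz : z ∈ Subgroup.center G) : ∃ c : ℂ, ∀ v, ρ z v = c • v := by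
  haveI : Nontrivial V := Module.nontrivial_of_finrank_pos (R := ℂ) (by rw [hV]; norm_num)
  obtain ⟨c, hc⟩ := Module.End.exists_eigenvalue (ρ z : Module.End ℂ V)
  refine ⟨c, ?_⟩
  rcases hirr (Module.End.eigenspace (ρ z : Module.End ℂ V) c) (by
    intro g x hx
    rw [Module.End.mem_eigenspace_iff] at hx ⊢
    rw [← Module.End.mul_apply, ← map_mul, ← Subgroup.mem_center_iff.1 hz g, map_mul, Module.End.mul_apply, hx, map_smul]) with h | h
  · exact absurd h hc
  · intro v
    have : v ∈ Module.End.eigenspace (ρ z : Module.End ℂ V) c := by rw [h]; trivial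
    exact Module.End.mem_eigenspace_iff.1 this

theorem main_rep (hinj : Function.Injective ρ) (hV : Module.finrank ℂ V = 2)
    (hirr : ∀ L : Submodule ℂ V, (∀ g, ∀ x ∈ L, ρ g x ∈ L) → L = ⊥ ∨ L = ⊤)
    (hab : ∀ K : Subgroup G, K.index = 2 → ¬ (∀ x ∈ K, ∀ y ∈ K, x * y = y * x)) :
    (Subgroup.center G).index = 12 ∨ (Subgroup.center G).index = 24 ∨ (Subgroup.center G).index = 60 := by
  haveI := finite_X hinj hV
  have hline : ∀ L : Submodule ℂ V, Module.finrank ℂ L = 1 → ¬ (∀ g, ∀ x ∈ L, ρ g x ∈ L) := by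
    intro L hL h
    rcases hirr L h with h1 | h1
    · rw [h1, finrank_bot] at hL; exact absurd hL (by norm_num)
    · rw [h1, finrank_top, hV] at hL; exact absurd hL (by norm_num)
  have hZ : Subgroup.center G ≠ ⊤ := by
    intro hZ
    haveI : Nontrivial V := Module.nontrivial_of_finrank_pos (R := ℂ) (by rw [hV]; norm_num)
    obtain ⟨v, hv⟩ := exists_ne (0 : V)
    apply hline (ℂ ∙ v) (finrank_span_singleton hv)
    intro g x hx
    obtain ⟨c, hc⟩ := center_scalar hV hirr (z := g) (by rw [hZ]; trivial)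
    rw [hc]
    exact Submodule.smul_mem _ _ hx
  rcases count (X := X ρ) (Subgroup.center G) hZ (by
      intro z hz L
      rw [smul_eq_iff]
      obtain ⟨c, hc⟩ := center_scalar hV hirr hz
      intro x hx
      rw [hc]
      exact Submodule.smul_mem _ _ hx) (fun g hg => card_fixed hinj hV hg) (by
      intro L
      obtain ⟨g, hg, hL⟩ := L.2.2
      exact ⟨g, (smul_eq_iff ρ g L).2 hL, hg⟩) with ⟨L, hL⟩ | h
  · exfalso
    have h0 : (MulAction.stabilizer G L).index ≠ 0 := Subgroup.index_ne_zero_of_finite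
    have h12 : (MulAction.stabilizer G L).index = 1 ∨ (MulAction.stabilizer G L).index = 2 := by omega
    rcases h12 with h1 | h2
    · rw [Subgroup.index_eq_one] at h1
      apply hline L.1 L.2.1
      intro g
      have : g ∈ MulAction.stabilizer G L := by rw [h1]; trivial
      exact (smul_eq_iff ρ g L).1 this
    · set K := MulAction.stabilizer G L with hK
      haveI hKn : K.Normal := Subgroup.normal_of_index_eq_two h2
      obtain ⟨g, hg⟩ : ∃ g, g ∉ K := by
        by_contra hc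
        push Not at hc
        have : K = ⊤ := by ext x; simp [hc x]
        rw [this, Subgroup.index_top] at h2
        exact absurd h2 (by norm_num)
      have hne : g • L ≠ L := fun h => hg h
      have hK2 : ∀ k ∈ K, k • (g • L) = g • L := by
        intro k hk
        have : g⁻¹ * k * g ∈ K := by simpa using hKn.conj_mem k hk g⁻¹
        have h3 : (g⁻¹ * k * g) • L = L := this
        rw [mul_smul, mul_smul, inv_smul_eq_iff] at h3
        exact h3
      by_cases hKZ : K ≤ Subgroup.center G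
      · exact hab K h2 (fun x hx y _ => (Subgroup.mem_center_iff.1 (hKZ hx) y).symm)
      · obtain ⟨k, hkK, hkZ⟩ := SetLike.not_le_iff_exists.1 hKZ
        obtain ⟨v, w, a, b, hab', hv, hw, hfv, hfw⟩ := eigen hinj hkZ
        have e1 := lines hV hab' hv hw hfv hfw L.2.1 ((smul_eq_iff ρ k L).1 hkK)
        have e2 := lines hV hab' hv hw hfv hfw (g • L).2.1 ((smul_eq_iff ρ k (g • L)).1 (hK2 k hkK))
        have hval : (g • L).1 ≠ L.1 := fun h => hne (Subtype.ext h)
        have key : ∀ x ∈ K, (∀ u ∈ (ℂ ∙ v), ρ x u ∈ (ℂ ∙ v)) ∧ (∀ u ∈ (ℂ ∙ w), ρ x u ∈ (ℂ ∙ w)) := by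
          intro x hx
          have f1 := (smul_eq_iff ρ x L).1 hx
          have f2 := (smul_eq_iff ρ x (g • L)).1 (hK2 x hx)
          rcases e1 with e1 | e1 <;> rcases e2 with e2 | e2
          · exact absurd (e2.trans e1.symm) hval
          · rw [e1] at f1; rw [e2] at f2; exact ⟨f1, f2⟩
          · rw [e1] at f1; rw [e2] at f2; exact ⟨f2, f1⟩
          · exact absurd (e2.trans e1.symm) hval
        have key2 : ∀ x ∈ K, ∃ c d : ℂ, ρ x v = c • v ∧ ρ x w = d • w := by
          intro x hx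
          obtain ⟨c, hc⟩ := Submodule.mem_span_singleton.1 ((key x hx).1 v (Submodule.mem_span_singleton_self v))
          obtain ⟨d, hd⟩ := Submodule.mem_span_singleton.1 ((key x hx).2 w (Submodule.mem_span_singleton_self w))
          exact ⟨c, d, hc.symm, hd.symm⟩
        apply hab K h2
        intro x hx y hy
        obtain ⟨c, d, h3, h4⟩ := key2 x hx
        obtain ⟨c', d', h3', h4'⟩ := key2 y hy
        apply hinj
        rw [map_mul, map_mul]
        apply LinearMap.ext
        intro u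
        obtain ⟨s, t, rfl⟩ := expand hV hab' hv hw hfv hfw u
        simp only [Module.End.mul_apply, map_add, map_smul, h3, h4, h3', h4']
        module
  · exact h

end Rep

end H70.Deg2
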