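import Cfsg.Agent.Lib.H53.Zsig
import Cfsg.Agent.Lib.H76.CycBound

/-! # Large primitive prime divisors (helper70) -/

set_option autoImplicit false
set_option linter.unusedVariables false
set_option linter.style.haveILetI false

namespace H70.LargeZsig

open Polynomial H53.Zsig

theorem aux_pow (t : ℕ) (h : 17 ≤ t) : 33216 * t ^ 16 < 27 ^ t := by
  induction t, h using Nat.le_induction with
  | base => norm_num
  | succ t ht ih =>
    have h1 : (t + 1) ^ 16 ≤ 27 * t ^ 16 := by
      have h2 : 17 * (t + 1) ≤ 18 * t := by omega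
      have h3 := Nat.pow_le_pow_left h2 16
      rw [mul_pow, mul_pow] at h3
      have h4 : 18 ^ 16 ≤ 27 * 17 ^ 16 := by norm_num
      have h5 : 17 ^ 16 * (t + 1) ^ 16 ≤ 17 ^ 16 * (27 * t ^ 16) := by
        calc 17 ^ 16 * (t + 1) ^ 16 ≤ 18 ^ 16 * t ^ 16 := h3
          _ ≤ (27 * 17 ^ 16) * t ^ 16 := Nat.mul_le_mul_right _ h4
          _ = _ := by ring
      exact Nat.le_of_mul_le_mul_left h5 (by norm_num)
    calc 33216 * (t + 1) ^ 16 ≤ 33216 * (27 * t ^ 16) := Nat.mul_le_mul_left _ h1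
      _ = 27 * (33216 * t ^ 16) := by ring
      _ < 27 * 27 ^ t := Nat.mul_lt_mul_of_pos_left ih (by norm_num)
      _ = 27 ^ (t + 1) := by ring

theorem small_check : ∀ n < 97, 44 ≤ n → n % 2 = 0 → ((n + 1) * (n / 2)) ^ 2 < 3 ^ n.totient := by
  decide +kernel

theorem totient_large {n : ℕ} (h1 : 44 ≤ n) (h2 : n % 2 = 0) : ((n + 1) * (n / 2)) ^ 2 < 3 ^ n.totient := by
  by_cases h : n < 97
  · exact small_check n h h1 h2
  · have hb := H76.CycBound.totient_bound n (by omega)
    set t := n.totient with ht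
    have ht17 : 17 ≤ t := by
      by_contra hc
      have h3 : t ^ 4 ≤ 16 ^ 4 := Nat.pow_le_pow_left (by omega) 4
      have h4 : 97 ^ 3 ≤ n ^ 3 := Nat.pow_le_pow_left (by omega) 3
      omega
    have h3 : (n + 1) * (n / 2) ≤ n ^ 2 := by
      have : n / 2 * 2 = n := by omega
      nlinarith
    have h4 : ((n + 1) * (n / 2)) ^ 2 ≤ n ^ 4 := by
      calc ((n + 1) * (n / 2)) ^ 2 ≤ (n ^ 2) ^ 2 := Nat.pow_le_pow_left h3 2
        _ = n ^ 4 := by ring
    have h5 : (n ^ 4) ^ 3 < (3 ^ t) ^ 3 := by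
      have h6 : (2 * n ^ 3) ^ 4 ≤ (27 * t ^ 4) ^ 4 := Nat.pow_le_pow_left hb 4
      have h7 : 16 * (n ^ 4) ^ 3 ≤ 531441 * t ^ 16 := by
        calc 16 * (n ^ 4) ^ 3 = (2 * n ^ 3) ^ 4 := by ring
          _ ≤ (27 * t ^ 4) ^ 4 := h6
          _ = 531441 * t ^ 16 := by ring
      have h8 := aux_pow t ht17
      have h9 : (3 ^ t) ^ 3 = 27 ^ t := by rw [← pow_mul, mul_comm, pow_mul]; norm_num
      rw [h9]
      have h10 : 0 < t ^ 16 := by positivity
      omega
    have h6 : n ^ 4 < 3 ^ t := lt_of_pow_lt_pow_left₀ 3 (Nat.zero_le _) h5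
    omega

/-! ### bounds for the values -/

theorem Phi_real {n a : ℕ} (ha : 1 < a) : ((Phi n a : ℕ) : ℝ) = (cyclotomic n ℝ).eval (a : ℝ) := Phi_cast ha ℝ

theorem Phi_lower {n a : ℕ} (hn : 2 ≤ n) (ha : 1 < a) : (a - 1) ^ n.totient < Phi n a := by
  have h1 := sub_one_pow_totient_lt_cyclotomic_eval (n := n) (q := (a : ℝ)) hn (by exact_mod_cast ha)
  rw [← Phi_real ha] at h1
  have h2 : ((a - 1 : ℕ) : ℝ) = (a : ℝ) - 1 := by rw [Nat.cast_sub ha.le, Nat.cast_one]
  rw [← h2] at h1
  exact_mod_cast h1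

theorem Phi_upper {n a : ℕ} (ha : 1 < a) : Phi n a ≤ (a + 1) ^ n.totient := by
  have h1 := cyclotomic_eval_le_add_one_pow_totient (q := (a : ℝ)) (by exact_mod_cast ha) n
  rw [← Phi_real ha] at h1
  exact_mod_cast h1

theorem Phi_mul_of_dvd {n p a : ℕ} (hp : p.Prime) (hd : p ∣ n) (ha : 1 < a) : Phi (n * p) a = Phi n (a ^ p) := by
  have hexp := cyclotomic_expand_eq_cyclotomic hp hd ℤ
  have h3 := congrArg (Polynomial.eval (a : ℤ)) hexp
  rw [expand_eval, ← Phi_cast_int ha] at h3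
  have h4 : ((a : ℤ)) ^ p = ((a ^ p : ℕ) : ℤ) := by push_cast; ring
  rw [h4, ← Phi_cast_int (Nat.one_lt_pow hp.ne_zero ha)] at h3
  exact_mod_cast h3.symm

theorem Phi_mul_of_not_dvd {n p a : ℕ} (hp : p.Prime) (hd : ¬ p ∣ n) (ha : 1 < a) :
    Phi (n * p) a * Phi n a = Phi n (a ^ p) := by
  have hexp := cyclotomic_expand_eq_cyclotomic_mul hp hd ℤ
  have h3 := congrArg (Polynomial.eval (a : ℤ)) hexp
  rw [expand_eval, eval_mul, ← Phi_cast_int ha, ← Phi_cast_int ha] at h3
  have h4 : ((a : ℤ)) ^ p = ((a ^ p : ℕ) : ℤ) := by push_cast; ring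
  rw [h4, ← Phi_cast_int (Nat.one_lt_pow hp.ne_zero ha)] at h3
  exact_mod_cast h3.symm

theorem three_pow_le {r : ℕ} (h : 5 ≤ r) : 3 ^ (r + 1) ≤ (2 ^ r - 1) ^ 2 := by
  -- (2^r - 1)^2 ≥ (31/32)^2 4^r
  have h1 : 31 * 2 ^ r ≤ 32 * (2 ^ r - 1) := by
    have h2 : 2 ^ 5 ≤ 2 ^ r := Nat.pow_le_pow_right (by norm_num) h
    omega
  have h2 : 961 * 4 ^ r ≤ 1024 * (2 ^ r - 1) ^ 2 := by
    have h3 := Nat.pow_le_pow_left h1 2
    rw [mul_pow, mul_pow] at h3
    have h4 : (2 ^ r) ^ 2 = 4 ^ r := by rw [← pow_mul, mul_comm, pow_mul]; norm_num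
    rw [h4] at h3
    norm_num at h3 ⊢
    exact h3
  have h3 : 1024 * 3 ^ (r + 1) ≤ 961 * 4 ^ r := by
    induction r, h using Nat.le_induction with
    | base => norm_num
    | succ k hk ih =>
      have := ih (by
        have h2 : 2 ^ 5 ≤ 2 ^ k := Nat.pow_le_pow_right (by norm_num) hk
        omega) (by
        have h1' : 31 * 2 ^ k ≤ 32 * (2 ^ k - 1) := by
          have h2 : 2 ^ 5 ≤ 2 ^ k := Nat.pow_le_pow_right (by norm_num) hk
          omega
        have h3 := Nat.pow_le_pow_left h1' 2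
        rw [mul_pow, mul_pow] at h3
        have h4 : (2 ^ k) ^ 2 = 4 ^ k := by rw [← pow_mul, mul_comm, pow_mul]; norm_num
        rw [h4] at h3
        norm_num at h3 ⊢
        exact h3)
      calc 1024 * 3 ^ (k + 1 + 1) = 3 * (1024 * 3 ^ (k + 1)) := by ring
        _ ≤ 3 * (961 * 4 ^ k) := Nat.mul_le_mul_left _ this
        _ ≤ 961 * 4 ^ (k + 1) := by rw [pow_succ]; omega
  have h4 : 1024 * 3 ^ (r + 1) ≤ 1024 * (2 ^ r - 1) ^ 2 := h3.trans h2
  exact Nat.le_of_mul_le_mul_left h4 (by norm_num)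

/-- lower bound for `Φ_n(2)`, `n` even -/
theorem Phi_two_lower {n : ℕ} (hn : 4 ≤ n) (he : n % 2 = 0) (h6 : n ≠ 6) : 3 ^ n.totient ≤ (Phi n 2) ^ 2 := by
  by_cases h4 : n % 4 = 0
  · -- 4 ∣ n
    obtain ⟨m, rfl⟩ : ∃ m, n = m * 2 := ⟨n / 2, by omega⟩
    have hm : 2 ∣ m := by omega
    rw [Phi_mul_of_dvd Nat.prime_two hm (by norm_num), mul_comm, Nat.totient_mul_of_prime_of_dvd Nat.prime_two hm]
    have h1 := Phi_lower (n := m) (a := 2 ^ 2) (by omega) (by norm_num)
    calc 3 ^ (2 * m.totient) = (3 ^ m.totient) ^ 2 := by rw [← pow_mul, mul_comm]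
      _ ≤ _ := Nat.pow_le_pow_left (by norm_num at h1 ⊢; exact h1.le) 2
  -- a prime r ≥ 5 dividing n or n = 2 * 3 ^ k
  by_cases hr : ∃ r, r.Prime ∧ 5 ≤ r ∧ r ∣ n
  · obtain ⟨r, hr, hr5, k, hk⟩ := hr
    rw [mul_comm] at hk
    have hk0 : 2 ≤ k := by
      by_contra hc
      have h7 : k = 0 ∨ k = 1 := by omega
      rcases h7 with h7 | h7
      · rw [h7, zero_mul] at hk; omega
      · rw [h7, one_mul] at hk
        rw [hk] at he
        rcases hr.eq_two_or_odd with h8 | h8 <;> omega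
    have h2r : 1 < 2 ^ r := Nat.one_lt_pow (by omega) (by norm_num)
    have h1 := Phi_lower (n := k) (a := 2 ^ r) hk0 h2r
    have h3 := three_pow_le hr5
    by_cases hrk : r ∣ k
    · rw [hk, Phi_mul_of_dvd hr hrk (by norm_num), mul_comm k r, Nat.totient_mul_of_prime_of_dvd hr hrk]
      calc 3 ^ (r * k.totient) = (3 ^ r) ^ k.totient := by rw [pow_mul]
        _ ≤ ((2 ^ r - 1) ^ 2) ^ k.totient := Nat.pow_le_pow_left ((Nat.pow_le_pow_right (by norm_num) (by omega)).trans h3) _
        _ = ((2 ^ r - 1) ^ k.totient) ^ 2 := by rw [← pow_mul, ← pow_mul, mul_comm]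
        _ ≤ _ := Nat.pow_le_pow_left h1.le 2
    · have h5 := Phi_mul_of_not_dvd hr hrk (a := 2) (by norm_num)
      have h6 := Phi_upper (n := k) (a := 2) (by norm_num)
      rw [hk, Nat.totient_mul (((Nat.Prime.coprime_iff_not_dvd hr).2 hrk).symm), Nat.totient_prime hr]
      have h7 : 9 ^ k.totient * 3 ^ (k.totient * (r - 1)) ≤ 9 ^ k.totient * (Phi (k * r) 2) ^ 2 := by
        calc 9 ^ k.totient * 3 ^ (k.totient * (r - 1)) = (3 ^ (r + 1)) ^ k.totient := by
              have : (9 : ℕ) = 3 ^ 2 := by norm_num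
              rw [this, ← pow_mul, ← pow_add, ← pow_mul]
              congr 1
              obtain ⟨s, rfl⟩ : ∃ s, r = s + 1 := ⟨r - 1, by omega⟩
              rw [Nat.add_sub_cancel]; ring
          _ ≤ ((2 ^ r - 1) ^ 2) ^ k.totient := Nat.pow_le_pow_left h3 _
          _ = ((2 ^ r - 1) ^ k.totient) ^ 2 := by rw [← pow_mul, ← pow_mul, mul_comm]
          _ ≤ (Phi k (2 ^ r)) ^ 2 := Nat.pow_le_pow_left h1.le 2
          _ = (Phi (k * r) 2) ^ 2 * (Phi k 2) ^ 2 := by rw [← h5, mul_pow]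
          _ ≤ (Phi (k * r) 2) ^ 2 * ((2 + 1) ^ k.totient) ^ 2 := Nat.mul_le_mul_left _ (Nat.pow_le_pow_left h6 2)
          _ = _ := by rw [← pow_mul, mul_comm k.totient 2, pow_mul]; norm_num; ring
      exact Nat.le_of_mul_le_mul_left h7 (by positivity)
  · -- n = 2 * 3 ^ k
    push Not at hr
    have hthree : ∀ m : ℕ, m ∣ n → m % 2 = 1 → m ≠ 1 → 3 ∣ m := by
      intro m hmn hm2 hm1
      obtain ⟨s, hs, hsm⟩ := Nat.exists_prime_and_dvd hm1
      have hs5 : ¬ 5 ≤ s := fun h => hr s hs h (hsm.trans hmn)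
      have hs2 : s ≠ 2 := by rintro rfl; omega
      have hs4 : s ≠ 4 := by rintro rfl; exact absurd hs (by norm_num)
      have := hs.two_le
      have : s = 3 := by omega
      rw [← this]; exact hsm
    have h9 : 9 ∣ n := by
      obtain ⟨m, rfl⟩ : ∃ m, n = 2 * m := ⟨n / 2, by omega⟩
      have h3 := hthree m (dvd_mul_left _ _) (by omega) (by omega)
      obtain ⟨c, rfl⟩ := h3
      have h3' := hthree c ⟨6, by ring⟩ (by omega) (by omega)
      obtain ⟨d, rfl⟩ := h3'
      exact ⟨2 * d, by ring⟩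
    obtain ⟨m, rfl⟩ : ∃ m, n = m * 3 := ⟨n / 3, by omega⟩
    have hm : 3 ∣ m := by omega
    rw [Phi_mul_of_dvd Nat.prime_three hm (by norm_num), mul_comm, Nat.totient_mul_of_prime_of_dvd Nat.prime_three hm]
    have h1 := Phi_lower (n := m) (a := 2 ^ 3) (by omega) (by norm_num)
    calc 3 ^ (3 * m.totient) = 27 ^ m.totient := by rw [pow_mul]; norm_num
      _ ≤ 49 ^ m.totient := Nat.pow_le_pow_left (by norm_num) _
      _ = (7 ^ m.totient) ^ 2 := by rw [← pow_mul, mul_comm, pow_mul]; norm_num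
      _ ≤ _ := Nat.pow_le_pow_left (by norm_num at h1 ⊢; exact h1.le) 2

/-! ### the structure of `Φ_n(a)` when all primitive primes are small -/

theorem Phi_dvd_of {n a : ℕ} (ha : 1 < a) (hn : 2 < n)
    (hz : ∀ r, IsZsig r a n → r = n + 1 ∧ ¬ r ^ 2 ∣ a ^ n - 1) :
    ∃ r : ℕ, r.Prime ∧ r ∣ n ∧ Phi n a ∣ (n + 1) * r := by
  classical
  -- uniqueness of the nonprimitive prime
  have huniq : ∀ r s : ℕ, r.Prime → s.Prime → r ∣ Phi n a → s ∣ Phi n a → ¬ IsZsig r a n → ¬ IsZsig s a n → s = r := by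
    intro r s hr hs hrP hsP hrz hsz
    rcases isZsig_or ha (by omega) hr hrP with h2 | ⟨k, m, hk, hnm, hrm, -, hm⟩
    · exact absurd h2 hrz
    rcases isZsig_or ha (by omega) hs hsP with h2 | ⟨k', m', hk', hnm', hsm', -, hm'⟩
    · exact absurd h2 hsz
    by_contra hne
    have h3 : s ∣ m := by
      have h4 : s ∣ r ^ k * m := by rw [← hnm, hnm']; exact Dvd.dvd.mul_right (dvd_pow_self s hk'.ne') _
      rcases (Nat.Prime.dvd_mul hs).mp h4 with h5 | h5
      · exact absurd ((Nat.prime_dvd_prime_iff_eq hs hr).mp (hs.dvd_of_dvd_pow h5)) hne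
      · exact h5
    have h3' : r ∣ m' := by
      have h4 : r ∣ s ^ k' * m' := by rw [← hnm', hnm]; exact Dvd.dvd.mul_right (dvd_pow_self r hk.ne') _
      rcases (Nat.Prime.dvd_mul hr).mp h4 with h5 | h5
      · exact absurd ((Nat.prime_dvd_prime_iff_eq hr hs).mp (hr.dvd_of_dvd_pow h5)) (Ne.symm hne)
      · exact h5
    have h6 : s ≤ r - 1 := Nat.le_of_dvd (by have := hr.two_le; omega) (h3.trans hm)
    have h7 : r ≤ s - 1 := Nat.le_of_dvd (by have := hs.two_le; omega) (h3'.trans hm')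
    have := hr.two_le
    omega
  have hPd : Phi n a ∣ a ^ n - 1 := Phi_dvd ha (by omega)
  have hP0 : Phi n a ≠ 0 := (Phi_pos ha).ne'
  -- a nonprimitive prime (or any prime of n)
  have hex : ∃ r : ℕ, r.Prime ∧ r ∣ n ∧ ∀ s : ℕ, s.Prime → s ∣ Phi n a → ¬ IsZsig s a n → s = r := by
    by_cases h : ∃ r, r.Prime ∧ r ∣ Phi n a ∧ ¬ IsZsig r a n
    · obtain ⟨r, hr, hrP, hrz⟩ := h
      refine ⟨r, hr, ?_, fun s hs hsP hsz => huniq r s hr hs hrP hsP hrz hsz⟩
      rcases isZsig_or ha (by omega) hr hrP with h2 | ⟨k, m, hk, hnm, hrm, -, hm⟩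
      · exact absurd h2 hrz
      · rw [hnm]; exact Dvd.dvd.mul_right (dvd_pow_self r hk.ne') _
    · push Not at h
      refine ⟨n.minFac, Nat.minFac_prime (by omega), Nat.minFac_dvd n, fun s hs hsP hsz => absurd (h s hs hsP) hsz⟩
  obtain ⟨r, hr, hrn, hall⟩ := hex
  refine ⟨r, hr, hrn, ?_⟩
  -- compare factorizations
  have hn1 : n + 1 ≠ 0 := by omega
  rw [← Nat.factorization_le_iff_dvd hP0 (Nat.mul_ne_zero hn1 hr.ne_zero)]
  intro s
  by_cases hs : s.Prime
  swap
  · rw [Nat.factorization_eq_zero_of_not_prime _ hs]; exact Nat.zero_le _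
  by_cases hsP : s ∣ Phi n a
  swap
  · rw [Nat.factorization_eq_zero_of_not_dvd hsP]; exact Nat.zero_le _
  have hle1 : (Phi n a).factorization s ≤ 1 := by
    by_contra hc
    have h2 : s ^ 2 ∣ Phi n a := (hs.pow_dvd_iff_le_factorization hP0).2 (by omega)
    by_cases hsz : IsZsig s a n
    · exact (hz s hsz).2 (h2.trans hPd)
    · exact sq_not_dvd ha hn hs hsP hsz h2
  refine hle1.trans ?_
  have h3 : s ∣ (n + 1) * r := by
    by_cases hsz : IsZsig s a n
    · rw [(hz s hsz).1]; exact dvd_mul_right _ _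
    · rw [hall s hs hsP hsz]; exact dvd_mul_left _ _
  exact (hs.dvd_iff_one_le_factorization (Nat.mul_ne_zero hn1 hr.ne_zero)).1 h3

/-- explicit small values -/
theorem Phi_four {a : ℕ} (ha : 1 < a) : Phi 4 a = a ^ 2 + 1 := by
  have := Phi_mul_of_dvd (n := 2) (p := 2) Nat.prime_two (dvd_refl 2) ha
  rw [show 2 * 2 = 4 by norm_num, Phi_two (Nat.one_lt_pow (by norm_num) ha)] at this
  exact this

theorem Phi_double {n a : ℕ} (hn : ¬ 2 ∣ n) (ha : 1 < a) : Phi (n * 2) a * Phi n a = Phi n (a ^ 2) :=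
  Phi_mul_of_not_dvd Nat.prime_two hn ha

theorem Phi_one {a : ℕ} (ha : 1 < a) : Phi 1 a = a - 1 := by
  have h := Phi_cast_int (n := 1) ha
  rw [cyclotomic_one] at h
  simp only [eval_sub, eval_X, eval_one] at h
  have : ((a - 1 : ℕ) : ℤ) = (a : ℤ) - 1 := by rw [Nat.cast_sub ha.le, Nat.cast_one]
  rw [← this] at h
  exact_mod_cast h

theorem Phi_prime {p a : ℕ} (hp : p.Prime) (ha : 1 < a) : Phi p a * (a - 1) = a ^ p - 1 := by
  have := Phi_mul_of_not_dvd (n := 1) hp (by intro h; exact hp.one_lt.ne' (Nat.dvd_one.1 h)) ha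
  rw [one_mul, Phi_one ha, Phi_one (Nat.one_lt_pow hp.ne_zero ha)] at this
  exact this

/-- `Φ_{2p}(a) (a + 1) = a ^ p + 1` for odd primes `p` -/
theorem Phi_two_prime {p a : ℕ} (hp : p.Prime) (hp2 : p ≠ 2) (ha : 1 < a) : Phi (2 * p) a * (a + 1) = a ^ p + 1 := by
  have := Phi_mul_of_not_dvd (n := 2) hp (by intro h; exact hp2 ((Nat.prime_dvd_prime_iff_eq hp Nat.prime_two).1 h)) ha
  rw [Phi_two ha, Phi_two (Nat.one_lt_pow hp.ne_zero ha)] at this
  exact this

theorem main (q n : ℕ) (hq : 2 ≤ q) (hn : 2 ≤ n)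
    (h1 : ¬ (n = 2 ∧ ∃ s t : ℕ, t ≤ 1 ∧ q + 1 = 2 ^ s * 3 ^ t))
    (h2 : ¬ (q = 2 ∧ (n = 4 ∨ n = 6 ∨ n = 10 ∨ n = 12 ∨ n = 18)))
    (h3 : ¬ (q = 3 ∧ (n = 4 ∨ n = 6))) (h4 : ¬ (q = 5 ∧ n = 6)) :
    ∃ p : ℕ, IsZsig p q n ∧ (n + 1 < p ∨ p ^ 2 ∣ q ^ n - 1) := by
  by_contra hcon
  push Not at hcon
  have ha : 1 < q := hq
  have hz : ∀ r, IsZsig r q n → r = n + 1 ∧ ¬ r ^ 2 ∣ q ^ n - 1 := by
    intro r hr
    obtain ⟨h5, h6⟩ := hcon r hr
    refine ⟨le_antisymm h5 ?_, h6⟩
    have hrp := hr.1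
    haveI : Fact r.Prime := ⟨hrp⟩
    have h7 := (isZsig_iff ha (by omega) hrp).1 hr
    have h8 : n ∣ r - 1 := by
      rw [← h7]
      apply orderOf_dvd_of_pow_eq_one
      apply ZMod.pow_card_sub_one_eq_one
      intro h0
      rw [h0] at h7
      have h9 := pow_orderOf_eq_one (0 : ZMod r)
      rw [h7, zero_pow (by omega)] at h9
      exact zero_ne_one h9
    have := Nat.le_of_dvd (by have := hrp.two_le; omega) h8
    omega
  rcases (by omega : n = 2 ∨ 2 < n) with rfl | hn2
  · -- n = 2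
    apply h1
    refine ⟨rfl, ?_⟩
    obtain ⟨s, c, hc, hsc⟩ := Nat.exists_eq_two_pow_mul_odd (n := q + 1) (by omega)
    have hsq : q ^ 2 - 1 = (q + 1) * (q - 1) := by
      obtain ⟨d, hd⟩ : ∃ d, q = d + 1 := ⟨q - 1, by omega⟩
      rw [hd]
      have : (d + 1) ^ 2 = (d + 1 + 1) * d + 1 := by ring
      rw [this]; simp
    have hcq : c ∣ q + 1 := by rw [hsc]; exact dvd_mul_left _ _
    have key : ∀ r : ℕ, r.Prime → r ∣ c → r = 3 ∧ ¬ 9 ∣ q + 1 := by
      intro r hr hrc
      have hrq : r ∣ q + 1 := hrc.trans hcq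
      have hr2 : r ≠ 2 := by
        rintro rfl
        exact (Nat.not_even_iff_odd.2 hc) (even_iff_two_dvd.2 hrc)
      have hZ : IsZsig r q 2 := by
        refine ⟨hr, by rw [hsq]; exact hrq.mul_right _, ?_⟩
        intro k hk0 hk2 hd
        have : k = 1 := by omega
        rw [this, pow_one] at hd
        have h4 : r ∣ (q + 1) - (q - 1) := Nat.dvd_sub hrq hd
        rw [show q + 1 - (q - 1) = 2 by omega] at h4
        exact hr2 ((Nat.prime_dvd_prime_iff_eq hr Nat.prime_two).mp h4)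
      obtain ⟨h5, h6⟩ := hz r hZ
      have hr3 : r = 3 := by omega
      refine ⟨hr3, fun h9 => h6 ?_⟩
      rw [hr3, hsq]
      exact h9.mul_right _
    by_cases hc1 : c = 1
    · exact ⟨s, 0, by norm_num, by rw [hsc, hc1]; simp⟩
    · obtain ⟨r, hr, hrc⟩ := Nat.exists_prime_and_dvd hc1
      obtain ⟨hr3, h9⟩ := key r hr hrc
      rw [hr3] at hrc
      obtain ⟨d, hd⟩ := hrc
      by_cases hd1 : d = 1
      · exact ⟨s, 1, le_rfl, by rw [hsc, hd, hd1]; simp⟩
      · exfalso
        obtain ⟨t, ht, htd⟩ := Nat.exists_prime_and_dvd hd1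
        obtain ⟨ht3, -⟩ := key t ht (by rw [hd]; exact htd.mul_left 3)
        rw [ht3] at htd
        obtain ⟨e, he⟩ := htd
        apply h9
        exact (show 9 ∣ c from ⟨e, by rw [hd, he]; ring⟩).trans hcq
  · -- n > 2
    obtain ⟨p, hp⟩ := zsigmondy ha hn (by rintro ⟨rfl, rfl⟩; exact h2 ⟨rfl, by norm_num⟩) (by rintro ⟨rfl, -⟩; omega)
    have hpn := (hz p hp).1
    have hprime : (n + 1).Prime := by rw [← hpn]; exact hp.1
    have he : n % 2 = 0 := by
      rcases hprime.eq_two_or_odd with h5 | h5 <;> omega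
    obtain ⟨r, hr, hrn, hd⟩ := Phi_dvd_of ha hn2 hz
    have hpos : 0 < (n + 1) * r := Nat.mul_pos (by omega) hr.pos
    have hle : Phi n q ≤ (n + 1) * r := Nat.le_of_dvd hpos hd
    have hr2 : r ≤ n / 2 := by
      obtain ⟨t, ht⟩ := hrn
      have ht2 : 2 ≤ t := by
        by_contra hc
        have h7 : t = 0 ∨ t = 1 := by omega
        rcases h7 with h7 | h7
        · rw [h7, mul_zero] at ht; omega
        · rw [h7, mul_one] at ht
          rcases hr.eq_two_or_odd with h8 | h8 <;> omega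
      have : r * 2 ≤ r * t := Nat.mul_le_mul_left _ ht2
      omega
    -- the two criteria
    have hcrit3 : ∀ R, r ≤ R → (n + 1) * R ≤ 2 ^ n.totient → q < 3 := by
      intro R hR h5
      by_contra hq3
      have h6 := Phi_lower (n := n) hn ha
      have h7 : 2 ^ n.totient ≤ (q - 1) ^ n.totient := Nat.pow_le_pow_left (by omega) _
      have h8 : (n + 1) * r ≤ (n + 1) * R := Nat.mul_le_mul_left _ hR
      omega
    have hcrit4 : ∀ R, r ≤ R → (n + 1) * R ≤ 3 ^ n.totient → q < 4 := by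
      intro R hR h5
      by_contra hq3
      have h6 := Phi_lower (n := n) hn ha
      have h7 : 3 ^ n.totient ≤ (q - 1) ^ n.totient := Nat.pow_le_pow_left (by omega) _
      have h8 : (n + 1) * r ≤ (n + 1) * R := Nat.mul_le_mul_left _ hR
      omega
    have hcrit2 : ∀ R, r ≤ R → n ≠ 6 → ((n + 1) * R) ^ 2 < 3 ^ n.totient → q ≠ 2 := by
      intro R hR h6 h5 hq2
      have h7 := Phi_two_lower (n := n) (by omega) he h6
      rw [hq2] at hle
      have h8 : Phi n 2 ≤ (n + 1) * R := hle.trans (Nat.mul_le_mul_left _ hR)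
      have h9 := Nat.pow_le_pow_left h8 2
      omega
    by_cases h44 : 44 ≤ n
    · have h5 := totient_large h44 he
      have h6 := hcrit2 (n / 2) hr2 (by omega) h5
      have h7 : (n + 1) * (n / 2) ≤ 2 ^ n.totient := by
        have h8 : ((n + 1) * (n / 2)) ^ 2 < (2 ^ n.totient) ^ 2 := by
          calc ((n + 1) * (n / 2)) ^ 2 < 3 ^ n.totient := h5
            _ ≤ 4 ^ n.totient := Nat.pow_le_pow_left (by norm_num) _
            _ = (2 ^ n.totient) ^ 2 := by rw [← pow_mul, mul_comm, pow_mul]; norm_num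
        exact (lt_of_pow_lt_pow_left₀ 2 (Nat.zero_le _) h8).le
      have := hcrit3 (n / 2) hr2 h7
      omega
    · -- small n
      have hprimes : ∀ m R : ℕ, n = m → (∀ s ≤ m, s.Prime → s ∣ m → s ≤ R) → r ≤ R := by
        intro m R hm h
        subst hm
        exact h r (by omega) hr hrn
      have hcase : n = 4 ∨ n = 6 ∨ n = 10 ∨ n = 12 ∨ n = 16 ∨ n = 18 ∨ n = 22 ∨ n = 28 ∨ n = 30 ∨ n = 36 ∨
          n = 40 ∨ n = 42 := by
        clear hcrit2 hcrit3 hcrit4 hprimes hle hd hpos hcon hz hp h1 h2 h3 h4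
        have hn43 : n ≤ 43 := by omega
        interval_cases n <;> first | omega | (exfalso; revert hprime; norm_num)
      have t2 : ∀ x : ℕ, x = x := fun x => rfl
      rcases hcase with rfl | rfl | rfl | rfl | rfl | rfl | rfl | rfl | rfl | rfl | rfl | rfl
      · -- 4
        rw [Phi_four ha] at hle
        have : q ≤ 3 := by
          by_contra hc
          have : 4 ^ 2 ≤ q ^ 2 := Nat.pow_le_pow_left (by omega) 2
          omega
        have : q = 2 ∨ q = 3 := by omega
        rcases this with rfl | rfl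
        · exact h2 ⟨rfl, by norm_num⟩
        · exact h3 ⟨rfl, by norm_num⟩
      · -- 6
        have e := Phi_two_prime Nat.prime_three (by norm_num) ha
        norm_num at e hle hr2
        have hq5 : q ≤ 5 := by
          by_contra hc
          have h7 : Phi 6 q ≤ 21 := by omega
          have h8 : q ^ 3 + 1 ≤ 21 * (q + 1) := by rw [← e]; exact Nat.mul_le_mul_right _ h7
          obtain ⟨u, rfl⟩ : ∃ u, q = 6 + u := ⟨q - 6, by omega⟩
          ring_nf at h8
          nlinarith [h8]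
        have : q = 2 ∨ q = 3 ∨ q = 4 ∨ q = 5 := by omega
        rcases this with rfl | rfl | rfl | rfl
        · exact h2 ⟨rfl, by norm_num⟩
        · exact h3 ⟨rfl, by norm_num⟩
        · have e2 : Phi 6 4 = 13 := by omega
          rw [e2] at hd
          have hr3 : r = 2 ∨ r = 3 := by have := hr.two_le; omega
          rcases hr3 with rfl | rfl <;> norm_num at hd
        · exact h4 ⟨rfl, rfl⟩
      · -- 10
        have ht : Nat.totient 10 = 4 := by decide +kernel
        have hR := hprimes 10 5 rfl (by decide +kernel)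
        have hq4 := hcrit4 5 hR (by rw [ht]; norm_num)
        have : q = 2 ∨ q = 3 := by omega
        rcases this with rfl | rfl
        · exact h2 ⟨rfl, by norm_num⟩
        · have e := Phi_two_prime (p := 5) (by norm_num) (by norm_num) ha
          norm_num at e hle
          omega
      · -- 12
        have ht : Nat.totient 12 = 4 := by decide +kernel
        have hR := hprimes 12 3 rfl (by decide +kernel)
        have hq4 := hcrit4 3 hR (by rw [ht]; norm_num)
        have : q = 2 ∨ q = 3 := by omega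
        rcases this with rfl | rfl
        · exact h2 ⟨rfl, by norm_num⟩
        · have e := Phi_mul_of_dvd (n := 6) (p := 2) (a := 3) Nat.prime_two (by norm_num) (by norm_num)
          have e' := Phi_two_prime (a := 9) Nat.prime_three (by norm_num) (by norm_num)
          norm_num at e e' hle
          omega
      · -- 16
        have ht : Nat.totient 16 = 8 := by decide +kernel
        have hR := hprimes 16 2 rfl (by decide +kernel)
        have hq3 := hcrit3 2 hR (by rw [ht]; norm_num)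
        exact hcrit2 2 hR (by norm_num) (by rw [ht]; norm_num) (by omega)
      · -- 18
        have ht : Nat.totient 18 = 6 := by decide +kernel
        have hR := hprimes 18 3 rfl (by decide +kernel)
        have hq3 := hcrit3 3 hR (by rw [ht]; norm_num)
        exact h2 ⟨by omega, by norm_num⟩
      · -- 22
        have ht : Nat.totient 22 = 10 := by decide +kernel
        have hR := hprimes 22 11 rfl (by decide +kernel)
        have hq3 := hcrit3 11 hR (by rw [ht]; norm_num)
        have hq2 : q = 2 := by omega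
        subst hq2
        have e := Phi_two_prime (p := 11) (a := 2) (by norm_num) (by norm_num) (by norm_num)
        norm_num at e hle
        omega
      · -- 28
        have ht : Nat.totient 28 = 12 := by decide +kernel
        have hR := hprimes 28 7 rfl (by decide +kernel)
        have hq3 := hcrit3 7 hR (by rw [ht]; norm_num)
        exact hcrit2 7 hR (by norm_num) (by rw [ht]; norm_num) (by omega)
      · -- 30
        have ht : Nat.totient 30 = 8 := by decide +kernel
        have hR := hprimes 30 5 rfl (by decide +kernel)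
        have hq3 := hcrit3 5 hR (by rw [ht]; norm_num)
        have hq2 : q = 2 := by omega
        subst hq2
        have e := Phi_mul_of_not_dvd (n := 6) (p := 5) (a := 2) (by norm_num) (by norm_num) (by norm_num)
        have e' := Phi_two_prime (a := 32) Nat.prime_three (by norm_num) (by norm_num)
        have e'' := Phi_two_prime (a := 2) Nat.prime_three (by norm_num) (by norm_num)
        norm_num at e e' e'' hle
        have e3 : Phi 6 2 = 3 := by omega
        have e4 : Phi 6 32 = 993 := by omega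
        rw [e3, e4] at e
        omega
      · -- 36
        have ht : Nat.totient 36 = 12 := by decide +kernel
        have hR := hprimes 36 3 rfl (by decide +kernel)
        have hq3 := hcrit3 3 hR (by rw [ht]; norm_num)
        exact hcrit2 3 hR (by norm_num) (by rw [ht]; norm_num) (by omega)
      · -- 40
        have ht : Nat.totient 40 = 16 := by decide +kernel
        have hR := hprimes 40 5 rfl (by decide +kernel)
        have hq3 := hcrit3 5 hR (by rw [ht]; norm_num)
        exact hcrit2 5 hR (by norm_num) (by rw [ht]; norm_num) (by omega)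
      · -- 42
        have ht : Nat.totient 42 = 12 := by decide +kernel
        have hR := hprimes 42 7 rfl (by decide +kernel)
        have hq3 := hcrit3 7 hR (by rw [ht]; norm_num)
        exact hcrit2 7 hR (by norm_num) (by rw [ht]; norm_num) (by omega)

end H70.LargeZsig
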